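import Mathlib

/-!
Piece [B] for S3767 (request 961 of helper9): a linear automorphism of exponent dividing `h`
whose nontrivial powers `x ^ i` (`0 < i < h`) fix no nonzero vector of an invariant
subspace `L` satisfies `h ∣ |L| - 1`.
-/

namespace Cfsg.Agent.Helper19.ESB

/-- Elementary orbit count: a self-map of a finset all of whose points have exact period `h`. -/
theorem orbit_count {α : Type*} [DecidableEq α] (f : α → α) (k : ℕ) :
    ∀ (S : Finset α), (∀ v ∈ S, f v ∈ S) → (∀ v ∈ S, f^[k + 1] v = v) →
      (∀ i, 0 < i → i < k + 1 → ∀ v ∈ S, f^[i] v ≠ v) → (k + 1) ∣ S.card := by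
  intro S
  induction S using Finset.strongInduction with
  | H S ih =>
    intro hS hper hfree
    rcases S.eq_empty_or_nonempty with rfl | ⟨v, hv⟩
    · simp
    · have hiter : ∀ i, ∀ w ∈ S, f^[i] w ∈ S := by
        intro i
        induction i with
        | zero => intro w hw; simpa using hw
        | succ n ih' =>
          intro w hw
          rw [Function.iterate_succ_apply']
          exact hS _ (ih' w hw)
      have hOS : (Finset.range (k + 1)).image (fun i => f^[i] v) ⊆ S := by
        intro w hw
        rw [Finset.mem_image] at hw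
        obtain ⟨i, -, rfl⟩ := hw
        exact hiter i v hv
      have hinj : Set.InjOn (fun i => f^[i] v) (Finset.range (k + 1) : Set ℕ) := by
        intro i hi j hj hij
        simp only [Finset.coe_range, Set.mem_Iio] at hi hj
        by_contra hne
        rcases Nat.lt_or_gt_of_ne hne with hlt | hlt
        · apply hfree (j - i) (by omega) (by omega) (f^[i] v) (hiter i v hv)
          rw [← Function.iterate_add_apply, Nat.sub_add_cancel hlt.le]
          exact hij.symm
        · apply hfree (i - j) (by omega) (by omega) (f^[j] v) (hiter j v hv)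
          rw [← Function.iterate_add_apply, Nat.sub_add_cancel hlt.le]
          exact hij
      have hOcard : ((Finset.range (k + 1)).image (fun i => f^[i] v)).card = k + 1 := by
        rw [Finset.card_image_of_injOn hinj, Finset.card_range]
      have hvO : v ∈ (Finset.range (k + 1)).image (fun i => f^[i] v) := by
        rw [Finset.mem_image]
        exact ⟨0, Finset.mem_range.mpr (by omega), rfl⟩
      have hfO : ∀ w ∈ S \ (Finset.range (k + 1)).image (fun i => f^[i] v),
          f w ∈ S \ (Finset.range (k + 1)).image (fun i => f^[i] v) := by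
        intro w hw
        rw [Finset.mem_sdiff] at hw ⊢
        refine ⟨hS w hw.1, fun hfw => hw.2 ?_⟩
        rw [Finset.mem_image] at hfw ⊢
        obtain ⟨i, hi, hi'⟩ := hfw
        rw [Finset.mem_range] at hi
        have hw1 : f^[k] (f w) = w := by
          have := hper w hw.1
          rwa [Function.iterate_succ_apply] at this
        have hw2 : f^[k + i] v = w := by
          rw [Function.iterate_add_apply]
          show f^[k] (f^[i] v) = w
          have hi'' : f^[i] v = f w := hi'
          rw [hi'', hw1]
        rcases Nat.eq_zero_or_pos i with rfl | hipos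
        · exact ⟨k, Finset.mem_range.mpr (by omega), by simpa using hw2⟩
        · refine ⟨i - 1, Finset.mem_range.mpr (by omega), ?_⟩
          have e : k + i = (i - 1) + (k + 1) := by omega
          rw [e, Function.iterate_add_apply, hper v hv] at hw2
          exact hw2
      have hss : S \ (Finset.range (k + 1)).image (fun i => f^[i] v) ⊂ S :=
        Finset.sdiff_ssubset hOS ⟨v, hvO⟩
      have h1 := ih _ hss hfO (fun w hw => hper w (Finset.mem_sdiff.mp hw).1)
        (fun i hi0 hi w hw => hfree i hi0 hi w (Finset.mem_sdiff.mp hw).1)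
      have h2 := Finset.card_sdiff_add_card_eq_card hOS
      rw [hOcard] at h2
      rw [← h2]
      exact Dvd.dvd.add h1 (dvd_refl _)

variable {p : ℕ} [Fact p.Prime] {V : Type*} [AddCommGroup V] [Module (ZMod p) V] [Finite V]

theorem free_dvd (x : V ≃ₗ[ZMod p] V) (h : ℕ) (h0 : 0 < h) (hh : x ^ h = 1)
    (L : Submodule (ZMod p) V) (hL : ∀ v ∈ L, x v ∈ L)
    (hfree : ∀ i, 0 < i → i < h → ∀ v ∈ L, (x ^ i) v = v → v = 0) :
    h ∣ Nat.card L - 1 := by
  classical
  haveI : Fintype V := Fintype.ofFinite V
  obtain ⟨k, rfl⟩ : ∃ k, h = k + 1 := ⟨h - 1, by omega⟩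
  have hpow : ∀ i : ℕ, ∀ v : V, (x ^ i) v = (⇑x)^[i] v := by
    intro i
    induction i with
    | zero => intro v; simp
    | succ n ih =>
      intro v
      rw [pow_succ, Function.iterate_succ_apply]
      exact ih (x v)
  have hcard : Nat.card L = (Finset.univ.filter (fun v : V => v ∈ L)).card := by
    rw [Nat.card_eq_fintype_card]
    exact Fintype.card_of_subtype _ (fun v => by simp)
  have h0L : (0 : V) ∈ Finset.univ.filter (fun v : V => v ∈ L) := by
    simp
  have hcard2 : ((Finset.univ.filter (fun v : V => v ∈ L)).erase 0).card = Nat.card L - 1 := by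
    rw [Finset.card_erase_of_mem h0L, hcard]
  rw [← hcard2]
  apply orbit_count (⇑x) k
  · intro v hv
    rw [Finset.mem_erase, Finset.mem_filter] at hv ⊢
    refine ⟨?_, Finset.mem_univ _, hL v hv.2.2⟩
    intro hxv
    exact hv.1 ((LinearEquiv.map_eq_zero_iff x).mp hxv)
  · intro v _
    rw [← hpow, hh]
    rfl
  · intro i hi0 hi v hv hfix
    rw [Finset.mem_erase, Finset.mem_filter] at hv
    rw [← hpow] at hfix
    exact hv.1 (hfree i hi0 hi v hv.2.2 hfix)

end Cfsg.Agent.Helper19.ESB
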