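import Mathlib
import Cfsg.Agent.Helper19.ES2

/-!
Helper library (helper19): extension of homomorphisms across a cyclic step, and extraspecial
`p`-groups of exponent `p` (worked out inside an ambient group with a central element `z` such
that every commutator is a power of `z` and every element has `p`-th power one).
-/

set_option autoImplicit false

namespace Cfsg.Agent.Helper19.ESP

section Ext

/-- Extending a homomorphism from a normal subgroup `C` across a cyclic step `D = C ⟨x⟩`. -/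
theorem extend_cyclic {G H : Type*} [Group G] [Group H] (C D : Subgroup G) (x : G) (x' : H)
    (f : C →* H)
    (hcov : ∀ g ∈ D, ∃ i : ℕ, g * (x ^ i)⁻¹ ∈ C)
    (hn : ∀ c ∈ C, x * c * x⁻¹ ∈ C)
    (hpow : ∀ (i : ℕ) (h : x ^ i ∈ C), f ⟨x ^ i, h⟩ = x' ^ i)
    (hconj : ∀ c (hc : c ∈ C), f ⟨x * c * x⁻¹, hn c hc⟩ = x' * f ⟨c, hc⟩ * x'⁻¹) :
    ∃ F : D →* H, ∀ g (hg : g ∈ D) (i : ℕ) (hi : g * (x ^ i)⁻¹ ∈ C),
      F ⟨g, hg⟩ = f ⟨g * (x ^ i)⁻¹, hi⟩ * x' ^ i := by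
  classical
  have fcongr : ∀ a b (ha : a ∈ C) (hb : b ∈ C), a = b → f ⟨a, ha⟩ = f ⟨b, hb⟩ := by
    intro a b ha hb hab; subst hab; rfl
  have fmul : ∀ a b (ha : a ∈ C) (hb : b ∈ C),
      f ⟨a * b, C.mul_mem ha hb⟩ = f ⟨a, ha⟩ * f ⟨b, hb⟩ := by
    intro a b ha hb
    have : (⟨a * b, C.mul_mem ha hb⟩ : C) = ⟨a, ha⟩ * ⟨b, hb⟩ := rfl
    rw [this, map_mul]
  have wd1 : ∀ g (i d : ℕ) (hi : g * (x ^ i)⁻¹ ∈ C) (hj : g * (x ^ (i + d))⁻¹ ∈ C),
      f ⟨_, hi⟩ * x' ^ i = f ⟨_, hj⟩ * x' ^ (i + d) := by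
    intro g i d hi hj
    have hd : x ^ d ∈ C := by
      have := C.mul_mem (C.inv_mem hj) hi
      have e : (g * (x ^ (i + d))⁻¹)⁻¹ * (g * (x ^ i)⁻¹) = x ^ d := by
        rw [pow_add]; group
      rwa [e] at this
    have e2 : g * (x ^ i)⁻¹ = (g * (x ^ (i + d))⁻¹) * x ^ d := by
      rw [pow_add]; group
    rw [fcongr _ _ hi (C.mul_mem hj hd) e2, fmul _ _ hj hd, hpow d hd, mul_assoc, ← pow_add,
      add_comm d i]
  have wd : ∀ g (i j : ℕ) (hi : g * (x ^ i)⁻¹ ∈ C) (hj : g * (x ^ j)⁻¹ ∈ C),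
      f ⟨_, hi⟩ * x' ^ i = f ⟨_, hj⟩ * x' ^ j := by
    intro g i j hi hj
    rcases le_total i j with h | h
    · obtain ⟨d, rfl⟩ := Nat.exists_eq_add_of_le h
      exact wd1 g i d hi hj
    · obtain ⟨d, rfl⟩ := Nat.exists_eq_add_of_le h
      exact (wd1 g j d hj hi).symm
  let φ : G → H := fun g =>
    if h : ∃ i : ℕ, g * (x ^ i)⁻¹ ∈ C then
      f ⟨_, Classical.choose_spec h⟩ * x' ^ (Classical.choose h)
    else 1
  have φspec : ∀ g (i : ℕ) (hi : g * (x ^ i)⁻¹ ∈ C), φ g = f ⟨_, hi⟩ * x' ^ i := by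
    intro g i hi
    have h : ∃ i : ℕ, g * (x ^ i)⁻¹ ∈ C := ⟨i, hi⟩
    show (if h : ∃ i : ℕ, g * (x ^ i)⁻¹ ∈ C then
      f ⟨_, Classical.choose_spec h⟩ * x' ^ (Classical.choose h) else 1) = _
    rw [dif_pos h]
    exact wd g _ i (Classical.choose_spec h) hi
  have cp : ∀ (i : ℕ) c (hc : c ∈ C), ∃ h : x ^ i * c * (x ^ i)⁻¹ ∈ C,
      f ⟨_, h⟩ = x' ^ i * f ⟨c, hc⟩ * (x' ^ i)⁻¹ := by
    intro i
    induction i with
    | zero =>
      intro c hc
      have e : x ^ 0 * c * (x ^ 0)⁻¹ = c := by simp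
      refine ⟨by rw [e]; exact hc, ?_⟩
      rw [fcongr _ c _ hc e]; simp
    | succ i ih =>
      intro c hc
      obtain ⟨h1, h2⟩ := ih c hc
      have e : x ^ (i + 1) * c * (x ^ (i + 1))⁻¹ = x * (x ^ i * c * (x ^ i)⁻¹) * x⁻¹ := by
        rw [pow_succ']; group
      refine ⟨by rw [e]; exact hn _ h1, ?_⟩
      rw [fcongr _ _ _ (hn _ h1) e, hconj _ h1, h2, pow_succ']
      group
  have hφmul : ∀ g ∈ D, ∀ h ∈ D, φ (g * h) = φ g * φ h := by
    intro g hg h hh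
    obtain ⟨i, hi⟩ := hcov g hg
    obtain ⟨j, hj⟩ := hcov h hh
    obtain ⟨h1, h2⟩ := cp i _ hj
    have e : g * h * (x ^ (i + j))⁻¹
        = (g * (x ^ i)⁻¹) * (x ^ i * (h * (x ^ j)⁻¹) * (x ^ i)⁻¹) := by
      rw [pow_add]; group
    have hgh : g * h * (x ^ (i + j))⁻¹ ∈ C := by rw [e]; exact C.mul_mem hi h1
    rw [φspec _ (i + j) hgh, φspec g i hi, φspec h j hj, fcongr _ _ hgh (C.mul_mem hi h1) e,
      fmul _ _ hi h1, h2, pow_add]
    group
  refine ⟨MonoidHom.mk' (fun g : D => φ g.1) (fun a b => hφmul a.1 a.2 b.1 b.2), ?_⟩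
  intro g hg i hi
  exact φspec g i hi

/-- Extending an isomorphism across a cyclic step. -/
theorem extend_iso_cyclic {G G' : Type*} [Group G] [Group G'] [Finite G] [Finite G']
    (C D : Subgroup G) (C' D' : Subgroup G') (x : G) (x' : G') (f : C ≃* C')
    (hcov : ∀ g ∈ D, ∃ i : ℕ, g * (x ^ i)⁻¹ ∈ C)
    (hn : ∀ c ∈ C, x * c * x⁻¹ ∈ C)
    (hCD' : C' ≤ D') (hxD' : x' ∈ D')
    (hcard : Nat.card D = Nat.card D')
    (hpow : ∀ (i : ℕ) (h : x ^ i ∈ C), (f ⟨x ^ i, h⟩ : G') = x' ^ i)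
    (hpow' : ∀ i : ℕ, x' ^ i ∈ C' → x ^ i ∈ C)
    (hconj : ∀ c (hc : c ∈ C),
      (f ⟨x * c * x⁻¹, hn c hc⟩ : G') = x' * (f ⟨c, hc⟩ : G') * x'⁻¹) :
    ∃ F : D ≃* D', ∀ g (hg : g ∈ D) (i : ℕ) (hi : g * (x ^ i)⁻¹ ∈ C),
      (F ⟨g, hg⟩ : G') = (f ⟨g * (x ^ i)⁻¹, hi⟩ : G') * x' ^ i := by
  obtain ⟨F₀, hF₀⟩ := extend_cyclic C D x x' (C'.subtype.comp f.toMonoidHom) hcov hn hpow hconj
  have hF₀' : ∀ g (hg : g ∈ D) (i : ℕ) (hi : g * (x ^ i)⁻¹ ∈ C),
      F₀ ⟨g, hg⟩ = (f ⟨g * (x ^ i)⁻¹, hi⟩ : G') * x' ^ i := hF₀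
  have hF₀D : ∀ g : D, F₀ g ∈ D' := by
    intro g
    obtain ⟨i, hi⟩ := hcov g.1 g.2
    have h : F₀ g = (f ⟨g.1 * (x ^ i)⁻¹, hi⟩ : G') * x' ^ i := hF₀' g.1 g.2 i hi
    rw [h]
    exact D'.mul_mem (hCD' (f ⟨_, hi⟩).2) (D'.pow_mem hxD' i)
  let Fhom : D →* D' := F₀.codRestrict D' hF₀D
  have hinj : Function.Injective Fhom := by
    rw [injective_iff_map_eq_one]
    intro g hg1
    have hg1' : F₀ g = 1 := by
      have h' := congrArg Subtype.val hg1
      exact h'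
    obtain ⟨i, hi⟩ := hcov g.1 g.2
    have h1 : F₀ g = (f ⟨g.1 * (x ^ i)⁻¹, hi⟩ : G') * x' ^ i := hF₀' g.1 g.2 i hi
    have h2 : (f ⟨g.1 * (x ^ i)⁻¹, hi⟩ : G') * x' ^ i = 1 := by rw [← h1]; exact hg1'
    have h3 : x' ^ i ∈ C' := by
      have : x' ^ i = ((f ⟨g.1 * (x ^ i)⁻¹, hi⟩ : C') : G')⁻¹ := eq_inv_of_mul_eq_one_right h2
      rw [this]; exact C'.inv_mem (f ⟨_, hi⟩).2
    have h4 : x ^ i ∈ C := hpow' i h3
    have hgC : g.1 ∈ C := by
      have := C.mul_mem hi h4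
      rwa [inv_mul_cancel_right] at this
    have h0 : g.1 * (x ^ 0)⁻¹ ∈ C := by simpa using hgC
    have h5 : F₀ g = (f ⟨g.1 * (x ^ 0)⁻¹, h0⟩ : G') * x' ^ 0 := hF₀' g.1 g.2 0 h0
    have h6 : (f ⟨g.1 * (x ^ 0)⁻¹, h0⟩ : G') = 1 := by
      rw [pow_zero x', mul_one] at h5
      rw [← h5]; exact hg1'
    have h7 : (⟨g.1 * (x ^ 0)⁻¹, h0⟩ : C) = 1 := by
      apply f.injective
      rw [map_one]
      exact Subtype.ext h6
    have h8 : g.1 * (x ^ 0)⁻¹ = 1 := by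
      have h' := congrArg Subtype.val h7
      exact h'
    apply Subtype.ext
    simpa using h8
  have hbij : Function.Bijective Fhom := hinj.bijective_of_nat_card_le (le_of_eq hcard.symm)
  refine ⟨MulEquiv.ofBijective Fhom hbij, ?_⟩
  intro g hg i hi
  exact hF₀' g hg i hi

end Ext

section Amb

variable {E : Type*} [Group E]

/-- Ambient hypotheses: `z` is central and nontrivial, every `p`-th power is trivial, and every
commutator is a power of `z`. -/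
structure AmbP (p : ℕ) (z : E) : Prop where
  z_ne : z ≠ 1
  z_c : ∀ g : E, g * z = z * g
  exp : ∀ x : E, x ^ p = 1
  cm : ∀ x y : E, ∃ k : ℕ, x * y * x⁻¹ * y⁻¹ = z ^ k

/-- The commutator of two elements. -/
def cc (x y : E) : E := x * y * x⁻¹ * y⁻¹

variable {p : ℕ} {z : E}

theorem zpow_c (hz : AmbP p z) (k : ℕ) (g : E) : g * z ^ k = z ^ k * g :=
  (Commute.pow_right (show Commute g z from hz.z_c g) k).eq

theorem cen' (hz : AmbP p z) (x y g : E) :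
    g * (x * y * x⁻¹ * y⁻¹) = (x * y * x⁻¹ * y⁻¹) * g := by
  obtain ⟨k, hk⟩ := hz.cm x y
  rw [hk]; exact zpow_c hz k g

theorem cc_mul_left (hz : AmbP p z) (x y w : E) : cc (x * y) w = cc x w * cc y w :=
  Gauss.comm_mul_left (fun g => cen' hz y w g)

theorem cc_mul_right (hz : AmbP p z) (y w w' : E) : cc y (w * w') = cc y w * cc y w' :=
  Gauss.comm_mul_right (fun g => cen' hz y w' g)

theorem cc_one_left (x : E) : cc 1 x = 1 := by unfold cc; group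

theorem cc_one_right (x : E) : cc x 1 = 1 := by unfold cc; group

theorem cc_eq_one_iff (x y : E) : cc x y = 1 ↔ x * y = y * x := by
  unfold cc
  constructor
  · intro h
    have e : x * y = (x * y * x⁻¹ * y⁻¹) * (y * x) := by group
    rw [e, h, one_mul]
  · intro h
    have e : x * y * x⁻¹ * y⁻¹ = (x * y) * (y * x)⁻¹ := by group
    rw [e, h, mul_inv_cancel]

theorem cc_pow_left (hz : AmbP p z) (x y : E) (i : ℕ) : cc (x ^ i) y = cc x y ^ i := by
  induction i with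
  | zero => rw [pow_zero, pow_zero, cc_one_left]
  | succ i ih => rw [pow_succ, pow_succ, cc_mul_left hz, ih]

theorem cc_inv_left (hz : AmbP p z) (x y : E) : cc x⁻¹ y = (cc x y)⁻¹ := by
  have h := cc_mul_left hz x x⁻¹ y
  rw [mul_inv_cancel, cc_one_left] at h
  exact eq_inv_of_mul_eq_one_right h.symm

theorem cc_symm (x y : E) : cc y x = (cc x y)⁻¹ := by unfold cc; group

theorem orderOf_z (hz : AmbP p z) (hp : p.Prime) : orderOf z = p :=
  haveI := Fact.mk hp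
  orderOf_eq_prime (hz.exp z) hz.z_ne

theorem zpow_eq_one_iff (hz : AmbP p z) (hp : p.Prime) (k : ℕ) : z ^ k = 1 ↔ p ∣ k := by
  rw [← orderOf_z hz hp]; exact orderOf_dvd_iff_pow_eq_one.symm

theorem pow_eq_one_of_dvd (hz : AmbP p z) (x : E) {k : ℕ} (h : p ∣ k) : x ^ k = 1 := by
  obtain ⟨q, rfl⟩ := h
  rw [pow_mul, hz.exp, one_pow]

/-- A nontrivial power of `z` generates `⟨z⟩`. -/
theorem gen_pow (hz : AmbP p z) (hp : p.Prime) {j : ℕ} (h : z ^ j ≠ 1) (k : ℕ) :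
    ∃ i : ℕ, (z ^ j) ^ i = z ^ k := by
  have hj : ¬ p ∣ j := fun hd => h ((zpow_eq_one_iff hz hp j).mpr hd)
  have hcop : Nat.Coprime j p := Nat.Coprime.symm ((Nat.Prime.coprime_iff_not_dvd hp).mpr hj)
  obtain ⟨m, -, hm⟩ := Nat.exists_mul_mod_eq_one_of_coprime hcop hp.one_lt
  refine ⟨m * k, ?_⟩
  have e : z ^ (j * m) = z := by
    have h1 : p * (j * m / p) + 1 = j * m := by
      have := Nat.div_add_mod (j * m) p
      rw [hm] at this
      exact this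
    rw [← h1, pow_add, pow_mul, hz.exp, one_pow, one_mul, pow_one]
  rw [← pow_mul, ← mul_assoc, pow_mul, e]

open Cfsg.Agent.Helper19.ES2 (cent1 cent1_le)

/-- `A = C_A(x) ⟨y⟩` when `y ∈ A` does not commute with `x`. -/
theorem coverP (hz : AmbP p z) (hp : p.Prime) (A : Subgroup E) (x y : E) (hy : y ∈ A)
    (hyx : cc y x ≠ 1) : ∀ g ∈ A, ∃ i : ℕ, g * (y ^ i)⁻¹ ∈ cent1 A x := by
  intro g hg
  obtain ⟨k, hk⟩ := hz.cm g x
  obtain ⟨j, hj⟩ := hz.cm y x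
  have hk' : cc g x = z ^ k := hk
  have hj' : cc y x = z ^ j := hj
  rw [hj'] at hyx
  obtain ⟨i, hi⟩ := gen_pow hz hp hyx k
  refine ⟨i, A.mul_mem hg (A.inv_mem (A.pow_mem hy i)), (cc_eq_one_iff _ x).mp ?_⟩
  rw [cc_mul_left hz, cc_inv_left hz, cc_pow_left hz, hk', hj', hi, mul_inv_cancel]

/-- Nondegeneracy: the centre of `A` is `⟨z⟩`. -/
def NDp (z : E) (A : Subgroup E) : Prop :=
  z ∈ A ∧ ∀ g ∈ A, (∀ h ∈ A, g * h = h * g) → ∃ k : ℕ, g = z ^ k

theorem nd_centP (hz : AmbP p z) (hp : p.Prime) (A : Subgroup E) (hA : NDp z A) (x y : E)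
    (hx : x ∈ A) (hy : y ∈ A) (hyx : cc y x ≠ 1) : NDp z (cent1 (cent1 A x) y) := by
  have hxy : cc x y ≠ 1 := by rw [cc_symm]; exact inv_ne_one.mpr hyx
  refine ⟨⟨⟨hA.1, (hz.z_c x).symm⟩, (hz.z_c y).symm⟩, ?_⟩
  intro g hg hcen
  apply hA.2 g hg.1.1
  intro h hh
  obtain ⟨i, hi⟩ := coverP hz hp A x y hy hyx h hh
  obtain ⟨j, hj⟩ := coverP hz hp (cent1 A x) y x ⟨hx, rfl⟩ hxy _ hi
  have h1 : Commute g (h * (y ^ i)⁻¹ * (x ^ j)⁻¹) := hcen _ hj
  have h2 : Commute g x := hg.1.2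
  have h3 : Commute g y := hg.2
  have h4 := (h1.mul_right (h2.pow_right j)).mul_right (h3.pow_right i)
  have e : h * (y ^ i)⁻¹ * (x ^ j)⁻¹ * x ^ j * y ^ i = h := by
    rw [inv_mul_cancel_right, inv_mul_cancel_right]
  rw [e] at h4
  exact h4.eq

theorem card_index_p [Finite E] (hz : AmbP p z) (hp : p.Prime) (A : Subgroup E) (x y : E)
    (hy : y ∈ A) (hyx : cc y x ≠ 1) : Nat.card A = p * Nat.card (cent1 A x) := by
  let ψ : A →* E :=
    { toFun := fun a => cc (a : E) x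
      map_one' := cc_one_left x
      map_mul' := fun a b => cc_mul_left hz a b x }
  have hrange : ψ.range ≤ Subgroup.zpowers z := by
    rintro _ ⟨a, rfl⟩
    obtain ⟨k, hk⟩ := hz.cm a x
    have hk' : ψ a = z ^ k := hk
    rw [hk']
    exact Subgroup.pow_mem _ (Subgroup.mem_zpowers z) k
  have hcz : Nat.card (Subgroup.zpowers z) = p := by rw [Nat.card_zpowers, orderOf_z hz hp]
  have hne : ψ.range ≠ ⊥ := by
    intro h
    apply hyx
    have : ψ ⟨y, hy⟩ ∈ ψ.range := ⟨_, rfl⟩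
    rw [h, Subgroup.mem_bot] at this
    exact this
  have hr : Nat.card ψ.range = p := by
    have h1 := Subgroup.card_dvd_of_le hrange
    rw [hcz] at h1
    rcases (Nat.dvd_prime hp).mp h1 with h2 | h2
    · exact absurd (Subgroup.card_eq_one.mp h2) hne
    · exact h2
  have hk : Nat.card ψ.ker = Nat.card (cent1 A x) := by
    apply Nat.card_congr
    exact
      { toFun := fun a => ⟨a.1.1, ⟨a.1.2, (cc_eq_one_iff _ x).mp (MonoidHom.mem_ker.mp a.2)⟩⟩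
        invFun := fun c => ⟨⟨c.1, c.2.1⟩, MonoidHom.mem_ker.mpr ((cc_eq_one_iff _ x).mpr c.2.2)⟩
        left_inv := fun a => rfl
        right_inv := fun c => rfl }
  have := Subgroup.card_mul_index ψ.ker
  rw [Subgroup.index_ker, hr, hk] at this
  rw [← this, mul_comm]

theorem exists_pair (hz : AmbP p z) (hp : p.Prime) (A : Subgroup E)
    (hab : ¬ ∀ g ∈ A, ∀ h ∈ A, g * h = h * g) : ∃ x ∈ A, ∃ y ∈ A, cc y x = z := by
  push Not at hab
  obtain ⟨g, hg, h, hh, hne⟩ := hab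
  have hne' : cc g h ≠ 1 := fun e => hne ((cc_eq_one_iff g h).mp e)
  obtain ⟨j, hj⟩ := hz.cm g h
  have hj' : cc g h = z ^ j := hj
  rw [hj'] at hne'
  obtain ⟨i, hi⟩ := gen_pow hz hp hne' 1
  refine ⟨h, hh, g ^ i, A.pow_mem hg i, ?_⟩
  rw [cc_pow_left hz, hj', hi, pow_one]

theorem cyc_of_card [Finite E] (hz : AmbP p z) (hp : p.Prime) (A : Subgroup E) (hzA : z ∈ A)
    (h : Nat.card A = p) : ∀ g ∈ A, ∃ k : ℕ, g = z ^ k := by
  haveI := Fact.mk hp
  intro g hg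
  have hz1 : (⟨z, hzA⟩ : A) ≠ 1 := fun e => hz.z_ne (by
    have e' := congrArg Subtype.val e; exact e')
  have htop := zpowers_eq_top_of_prime_card h hz1
  have hmem : (⟨g, hg⟩ : A) ∈ Subgroup.zpowers (⟨z, hzA⟩ : A) := by
    rw [htop]; exact Subgroup.mem_top _
  rw [← mem_powers_iff_mem_zpowers] at hmem
  obtain ⟨k, hk⟩ := hmem
  refine ⟨k, ?_⟩
  have h' := congrArg Subtype.val hk
  exact h'.symm

theorem card_of_cyc (hz : AmbP p z) (hp : p.Prime) (A : Subgroup E) (hzA : z ∈ A)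
    (h : ∀ g ∈ A, ∃ k : ℕ, g = z ^ k) : Nat.card A = p := by
  have : A = Subgroup.zpowers z := by
    apply le_antisymm
    · intro g hg
      obtain ⟨k, rfl⟩ := h g hg
      exact Subgroup.pow_mem _ (Subgroup.mem_zpowers z) k
    · rw [Subgroup.zpowers_le]; exact hzA
  rw [this, Nat.card_zpowers, orderOf_z hz hp]

theorem conj_pow_eq (hz : AmbP p z) (x y : E) (h : cc y x = z) (i : ℕ) :
    y * x ^ i * y⁻¹ = z ^ i * x ^ i := by
  have h1 : y * x * y⁻¹ = z * x := by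
    unfold cc at h
    rw [← h]; group
  rw [← conj_pow, h1, (show Commute z x from (hz.z_c x).symm).mul_pow]

/-- Extending an isomorphism of centralizers of hyperbolic pairs. -/
theorem ext_splitP {E' : Type*} [Group E'] [Finite E] [Finite E'] {z' : E'} (hp : p.Prime)
    (hz : AmbP p z) (hz' : AmbP p z') (A : Subgroup E) (A' : Subgroup E') (x y : E) (x' y' : E')
    (hx : x ∈ A) (hy : y ∈ A) (hx' : x' ∈ A') (hy' : y' ∈ A') (hzA : z ∈ A)
    (hk : cc y x = z) (hk' : cc y' x' = z')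
    (hcard : Nat.card A = Nat.card A')
    (f : cent1 (cent1 A x) y ≃* cent1 (cent1 A' x') y')
    (hfz : ∀ h : z ∈ cent1 (cent1 A x) y, (f ⟨z, h⟩ : E') = z') :
    ∃ F : A ≃* A', ∀ h : z ∈ A, (F ⟨z, h⟩ : E') = z' := by
  have hyx1 : cc y x ≠ 1 := by rw [hk]; exact hz.z_ne
  have hyx1' : cc y' x' ≠ 1 := by rw [hk']; exact hz'.z_ne
  have hxy : cc x y = z⁻¹ := by rw [cc_symm, hk]
  have hxy' : cc x' y' = z'⁻¹ := by rw [cc_symm, hk']
  have hxy1 : cc x y ≠ 1 := by rw [hxy]; exact inv_ne_one.mpr hz.z_ne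
  have hzC : z ∈ cent1 (cent1 A x) y := ⟨⟨hzA, (hz.z_c x).symm⟩, (hz.z_c y).symm⟩
  have h1C : (1 : E) ∈ cent1 (cent1 A x) y := Subgroup.one_mem _
  have fcongr : ∀ a b (ha : a ∈ cent1 (cent1 A x) y) (hb : b ∈ cent1 (cent1 A x) y), a = b →
      (f ⟨a, ha⟩ : E') = (f ⟨b, hb⟩ : E') := by
    intro a b ha hb hab; subst hab; rfl
  have f1 : (f ⟨1, h1C⟩ : E') = 1 := by
    have : (⟨1, h1C⟩ : cent1 (cent1 A x) y) = 1 := rfl
    rw [this, map_one]; rfl
  have hxpow : ∀ i : ℕ, x ^ i ∈ cent1 (cent1 A x) y → p ∣ i := by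
    intro i hi
    have h1 : cc (x ^ i) y = 1 := (cc_eq_one_iff _ y).mpr hi.2
    rw [cc_pow_left hz, hxy, inv_pow, inv_eq_one] at h1
    exact (zpow_eq_one_iff hz hp i).mp h1
  have hxpow' : ∀ i : ℕ, x' ^ i ∈ cent1 (cent1 A' x') y' → p ∣ i := by
    intro i hi
    have h1 : cc (x' ^ i) y' = 1 := (cc_eq_one_iff _ y').mpr hi.2
    rw [cc_pow_left hz', hxy', inv_pow, inv_eq_one] at h1
    exact (zpow_eq_one_iff hz' hp i).mp h1
  have hypow : ∀ i : ℕ, y ^ i ∈ cent1 A x → p ∣ i := by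
    intro i hi
    have h1 : cc (y ^ i) x = 1 := (cc_eq_one_iff _ x).mpr hi.2
    rw [cc_pow_left hz, hk] at h1
    exact (zpow_eq_one_iff hz hp i).mp h1
  have hypow' : ∀ i : ℕ, y' ^ i ∈ cent1 A' x' → p ∣ i := by
    intro i hi
    have h1 : cc (y' ^ i) x' = 1 := (cc_eq_one_iff _ x').mpr hi.2
    rw [cc_pow_left hz', hk'] at h1
    exact (zpow_eq_one_iff hz' hp i).mp h1
  have hc1 : Nat.card (cent1 A x) = Nat.card (cent1 A' x') := by
    have h1 := card_index_p hz hp A x y hy hyx1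
    have h2 := card_index_p hz' hp A' x' y' hy' hyx1'
    have : p * Nat.card (cent1 A x) = p * Nat.card (cent1 A' x') := by rw [← h1, ← h2, hcard]
    exact Nat.eq_of_mul_eq_mul_left hp.pos this
  have hxC₁ : x ∈ cent1 A x := ⟨hx, rfl⟩
  have hCle : cent1 (cent1 A x) y ≤ cent1 A x := cent1_le _ y
  have hcov₁ := coverP hz hp (cent1 A x) y x hxC₁ hxy1
  obtain ⟨F₁, hF₁⟩ := extend_iso_cyclic (cent1 (cent1 A x) y) (cent1 A x)
    (cent1 (cent1 A' x') y') (cent1 A' x') x x' f hcov₁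
    (fun c hc => by
      have e : x * c * x⁻¹ = c := by rw [← hc.1.2, mul_inv_cancel_right]
      rw [e]; exact hc)
    (cent1_le _ y') ⟨hx', rfl⟩ hc1
    (fun i h => by
      have hd := hxpow i h
      rw [fcongr _ 1 h h1C (pow_eq_one_of_dvd hz x hd), f1, pow_eq_one_of_dvd hz' x' hd])
    (fun i h => by
      rw [pow_eq_one_of_dvd hz x (hxpow' i h)]; exact h1C)
    (fun c hc => by
      have e : x * c * x⁻¹ = c := by rw [← hc.1.2, mul_inv_cancel_right]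
      have e' : x' * (f ⟨c, hc⟩ : E') * x'⁻¹ = (f ⟨c, hc⟩ : E') := by
        rw [← (f ⟨c, hc⟩).2.1.2, mul_inv_cancel_right]
      rw [e']
      exact fcongr _ _ _ hc e)
  have F₁congr : ∀ a b (ha : a ∈ cent1 A x) (hb : b ∈ cent1 A x), a = b →
      (F₁ ⟨a, ha⟩ : E') = (F₁ ⟨b, hb⟩ : E') := by
    intro a b ha hb hab; subst hab; rfl
  have F₁one : (F₁ ⟨1, Subgroup.one_mem _⟩ : E') = 1 := by
    have : (⟨1, Subgroup.one_mem _⟩ : cent1 A x) = 1 := rfl
    rw [this, map_one]; rfl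
  have hn₂ : ∀ g ∈ cent1 A x, y * g * y⁻¹ ∈ cent1 A x := fun g hg =>
    ⟨A.mul_mem (A.mul_mem hy hg.1) (A.inv_mem hy), by
      calc y * g * y⁻¹ * x = (y * g * y⁻¹ * g⁻¹) * (g * x) := by group
        _ = (y * g * y⁻¹ * g⁻¹) * (x * g) := by rw [hg.2]
        _ = (y * g * y⁻¹ * g⁻¹) * x * g := by group
        _ = x * (y * g * y⁻¹ * g⁻¹) * g := by rw [cen' hz y g x]
        _ = x * (y * g * y⁻¹) := by group⟩
  obtain ⟨F₂, hF₂⟩ := extend_iso_cyclic (cent1 A x) A (cent1 A' x') A' y y' F₁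
    (coverP hz hp A x y hy hyx1) hn₂ (cent1_le A' x') hy' hcard
    (fun i h => by
      have hd := hypow i h
      rw [F₁congr _ 1 h (Subgroup.one_mem _) (pow_eq_one_of_dvd hz y hd), F₁one,
        pow_eq_one_of_dvd hz' y' hd])
    (fun i h => by
      rw [pow_eq_one_of_dvd hz y (hypow' i h)]; exact Subgroup.one_mem _)
    (fun g hg => by
      obtain ⟨i, hi⟩ := hcov₁ g hg
      have hzi : z ^ i ∈ cent1 (cent1 A x) y := Subgroup.pow_mem _ hzC i
      have e : y * g * y⁻¹ * (x ^ i)⁻¹ = (g * (x ^ i)⁻¹) * z ^ i := by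
        have hcy : (g * (x ^ i)⁻¹) * y = y * (g * (x ^ i)⁻¹) := hi.2
        calc y * g * y⁻¹ * (x ^ i)⁻¹
            = (y * (g * (x ^ i)⁻¹)) * (y⁻¹ * (y * x ^ i * y⁻¹)) * (x ^ i)⁻¹ := by group
          _ = ((g * (x ^ i)⁻¹) * y) * (y⁻¹ * (z ^ i * x ^ i)) * (x ^ i)⁻¹ := by
            rw [hcy, conj_pow_eq hz x y hk i]
          _ = (g * (x ^ i)⁻¹) * z ^ i := by group
      have hmem : y * g * y⁻¹ * (x ^ i)⁻¹ ∈ cent1 (cent1 A x) y := by
        rw [e]; exact Subgroup.mul_mem _ hi hzi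
      rw [hF₁ _ (hn₂ g hg) i hmem, hF₁ g hg i hi]
      have hv3 : (f ⟨_, hmem⟩ : E') = (f ⟨_, hi⟩ : E') * z' ^ i := by
        rw [fcongr _ _ hmem (Subgroup.mul_mem _ hi hzi) e]
        have : (⟨(g * (x ^ i)⁻¹) * z ^ i, Subgroup.mul_mem _ hi hzi⟩ : cent1 (cent1 A x) y)
            = ⟨g * (x ^ i)⁻¹, hi⟩ * ⟨z, hzC⟩ ^ i := rfl
        rw [this, map_mul, map_pow]
        show (f ⟨g * (x ^ i)⁻¹, hi⟩ : E') * (f ⟨z, hzC⟩ : E') ^ i = _
        rw [hfz hzC]
      rw [hv3]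
      have hfcy : (f ⟨_, hi⟩ : E') * y' = y' * (f ⟨_, hi⟩ : E') := (f ⟨_, hi⟩).2.2
      calc (f ⟨_, hi⟩ : E') * z' ^ i * x' ^ i
          = ((f ⟨_, hi⟩ : E') * y') * (y'⁻¹ * (z' ^ i * x' ^ i)) := by group
        _ = (y' * (f ⟨_, hi⟩ : E')) * (y'⁻¹ * (y' * x' ^ i * y'⁻¹)) := by
          rw [hfcy, conj_pow_eq hz' x' y' hk' i]
        _ = y' * ((f ⟨_, hi⟩ : E') * x' ^ i) * y'⁻¹ := by group)
  refine ⟨F₂, fun h => ?_⟩
  have h0 : z * (y ^ 0)⁻¹ ∈ cent1 A x := by simpa using hCle hzC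
  have h0' : z * (y ^ 0)⁻¹ * (x ^ 0)⁻¹ ∈ cent1 (cent1 A x) y := by simpa using hzC
  rw [hF₂ z h 0 h0, hF₁ _ h0 0 h0', fcongr _ z h0' hzC (by simp), hfz hzC]
  simp

/-- Nondegenerate subgroups of the same order are isomorphic. -/
theorem iso_thm_p {E' : Type*} [Group E'] [Finite E] [Finite E'] {z' : E'} (hp : p.Prime)
    (hz : AmbP p z) (hz' : AmbP p z') : ∀ n : ℕ, ∀ (A : Subgroup E) (A' : Subgroup E'),
    NDp z A → NDp z' A' → Nat.card A = n → Nat.card A' = n →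
    ∃ F : A ≃* A', ∀ h : z ∈ A, (F ⟨z, h⟩ : E') = z' := by
  intro n
  induction n using Nat.strong_induction_on with
  | _ n ih =>
    intro A A' hA hA' hn hn'
    by_cases hab : ∀ g ∈ A, ∀ h ∈ A, g * h = h * g
    · have hAel : ∀ g ∈ A, ∃ k : ℕ, g = z ^ k := fun g hg => hA.2 g hg (hab g hg)
      have h1 := card_of_cyc hz hp A hA.1 hAel
      have hAel' := cyc_of_card hz' hp A' hA'.1 (by rw [hn', ← hn, h1])
      obtain ⟨F, hF⟩ := extend_iso_cyclic (⊥ : Subgroup E) A (⊥ : Subgroup E') A' z z'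
        MulEquiv.ofUnique
        (fun g hg => by
          obtain ⟨k, hk⟩ := hAel g hg
          exact ⟨k, by rw [hk, mul_inv_cancel]; exact Subgroup.one_mem _⟩)
        (fun c hc => by
          rw [Subgroup.mem_bot] at hc
          rw [hc, mul_one, mul_inv_cancel]; exact Subgroup.one_mem _)
        bot_le hA'.1 (by rw [hn, hn'])
        (fun i h => by
          rw [Subgroup.mem_bot] at h
          have hd := (zpow_eq_one_iff hz hp i).mp h
          rw [(zpow_eq_one_iff hz' hp i).mpr hd]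
          exact Subgroup.mem_bot.mp (Subtype.property _))
        (fun i h => by
          rw [Subgroup.mem_bot] at h ⊢
          exact (zpow_eq_one_iff hz hp i).mpr ((zpow_eq_one_iff hz' hp i).mp h))
        (fun c hc => by
          have h1 : ∀ u : (⊥ : Subgroup E'), (u : E') = 1 := fun u => Subgroup.mem_bot.mp u.2
          rw [h1, h1, mul_one, mul_inv_cancel])
      refine ⟨F, fun h => ?_⟩
      have h1 : z * (z ^ 1)⁻¹ ∈ (⊥ : Subgroup E) := by
        rw [pow_one, mul_inv_cancel]; exact Subgroup.one_mem _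
      have h2 : ∀ u : (⊥ : Subgroup E'), (u : E') = 1 := fun u => Subgroup.mem_bot.mp u.2
      rw [hF z h 1 h1, h2, one_mul, pow_one]
    · have hab' : ¬ ∀ g ∈ A', ∀ h ∈ A', g * h = h * g := by
        intro hab'
        have hAel' : ∀ g ∈ A', ∃ k : ℕ, g = z' ^ k := fun g hg => hA'.2 g hg (hab' g hg)
        have h1 := card_of_cyc hz' hp A' hA'.1 hAel'
        have hAel := cyc_of_card hz hp A hA.1 (by rw [hn, ← hn', h1])
        apply hab
        intro g hg h hh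
        obtain ⟨k, rfl⟩ := hAel g hg
        obtain ⟨l, rfl⟩ := hAel h hh
        rw [← pow_add, ← pow_add, add_comm]
      obtain ⟨x, hx, y, hy, hk⟩ := exists_pair hz hp A hab
      obtain ⟨x', hx', y', hy', hk'⟩ := exists_pair hz' hp A' hab'
      have hyx1 : cc y x ≠ 1 := by rw [hk]; exact hz.z_ne
      have hyx1' : cc y' x' ≠ 1 := by rw [hk']; exact hz'.z_ne
      have hxy1 : cc x y ≠ 1 := by rw [cc_symm]; exact inv_ne_one.mpr hyx1
      have hxy1' : cc x' y' ≠ 1 := by rw [cc_symm]; exact inv_ne_one.mpr hyx1'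
      have hc1 := card_index_p hz hp A x y hy hyx1
      have hc2 := card_index_p hz hp (cent1 A x) y x ⟨hx, rfl⟩ hxy1
      have hc1' := card_index_p hz' hp A' x' y' hy' hyx1'
      have hc2' := card_index_p hz' hp (cent1 A' x') y' x' ⟨hx', rfl⟩ hxy1'
      have hCnd := nd_centP hz hp A hA x y hx hy hyx1
      have hCnd' := nd_centP hz' hp A' hA' x' y' hx' hy' hyx1'
      have hcC : Nat.card (cent1 (cent1 A x) y) = Nat.card (cent1 (cent1 A' x') y') := by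
        have : p * (p * Nat.card (cent1 (cent1 A x) y))
            = p * (p * Nat.card (cent1 (cent1 A' x') y')) := by
          rw [← hc2, ← hc1, ← hc2', ← hc1', hn, hn']
        exact Nat.eq_of_mul_eq_mul_left hp.pos (Nat.eq_of_mul_eq_mul_left hp.pos this)
      have hlt : Nat.card (cent1 (cent1 A x) y) < n := by
        have hpos : 0 < Nat.card (cent1 (cent1 A x) y) := Nat.card_pos
        have h2 : 2 * (2 * Nat.card (cent1 (cent1 A x) y))
            ≤ p * (p * Nat.card (cent1 (cent1 A x) y)) :=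
          Nat.mul_le_mul hp.two_le (Nat.mul_le_mul hp.two_le le_rfl)
        rw [← hc2, ← hc1, hn] at h2
        omega
      obtain ⟨f, hf⟩ := ih _ hlt _ _ hCnd hCnd' rfl hcC.symm
      exact ext_splitP hp hz hz' A A' x y x' y' hx hy hx' hy' hA.1 hk hk' (by rw [hn, hn']) f hf

end Amb

end Cfsg.Agent.Helper19.ESP
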