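import Mathlib
import Cfsg.Prelude.Def_LocalEven
import Cfsg.Agent.S0444
import Cfsg.Agent.Helper26.Involves
import Cfsg.Agent.Helper9.HypGen
import Cfsg.Agent.Helper3.ElemAb

/-!
helper19: small quadratic offenders force a section `S₃` (Kurzweil–Stellmacher style).

* `involves_s3_of_inverted` : an involution inverting an element of order three gives `S₃`;
* `transvection_of_card` : an involution with a large centralizer on an elementary abelian 2-group
  acts as a transvection;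
* `coset_stable_pow`, `fix_of_comm_odd` : coprime action bookkeeping;
* `card_fix_le` : if `M` acts faithfully on the elementary abelian 2-group `V`, `O ≤ M` is a normal
  subgroup of odd order with `C_M(O) ≤ O` and `S₃` is not involved in `M`, then
  `|C_V(A)| * |A|^2 ≤ |V|` for all elementary abelian 2-subgroups `A` of `M`.
-/

set_option autoImplicit false

namespace Cfsg.Agent.Helper19.HH

open Cfsg

/-- An involution inverting an element of order three gives a section (indeed a subgroup) `S₃`. -/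
theorem involves_s3_of_inverted {G : Type*} [Group G] (t y : G) (ht : t * t = 1) (hy3 : y ^ 3 = 1)
    (hy1 : y ≠ 1) (hinv : t * y * t⁻¹ = y⁻¹) : Cfsg.Involves (Equiv.Perm (Fin 3)) G := by
  have htinv : t⁻¹ = t := inv_eq_of_mul_eq_one_left ht
  rw [htinv] at hinv
  have hy2 : y * y ≠ 1 := by
    intro h
    apply hy1
    have h3 : y ^ 3 = y * y * y := by rw [pow_succ, pow_two]
    rw [h3, h, one_mul] at hy3
    exact hy3
  have ht1 : t ≠ 1 := by
    intro h
    apply hy2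
    rw [h, one_mul, mul_one] at hinv
    have h4 := mul_inv_cancel y
    rwa [← hinv] at h4
  have hty : (t * y) * (t * y) = 1 := by
    calc t * y * (t * y) = (t * y * t) * y := by group
      _ = 1 := by rw [hinv, inv_mul_cancel]
  have hty1 : t * y ≠ 1 := by
    intro h
    have h5 : y = t := by rw [← htinv]; exact eq_inv_of_mul_eq_one_right h
    apply hy2
    rw [h5]; exact ht
  have hne : t ≠ t * y := by
    intro h
    exact hy1 (mul_eq_left.mp h.symm)
  have hoa : orderOf t = 2 := orderOf_eq_prime (by rw [pow_two]; exact ht) ht1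
  have hob : orderOf (t * y) = 2 := orderOf_eq_prime (by rw [pow_two]; exact hty) hty1
  have hprod : t * (t * y) = y := by rw [← mul_assoc, ht, one_mul]
  have ho3 : orderOf (t * (t * y)) = 3 := by rw [hprod]; exact orderOf_eq_prime hy3 hy1
  haveI : NeZero (orderOf (t * (t * y))) := ⟨by rw [ho3]; norm_num⟩
  obtain ⟨e⟩ := Cfsg.Agent.S0444.dihedral_of_involutions t (t * y) hoa hob hne
  have key : Nonempty (↥(Subgroup.closure ({t, t * y} : Set G)) ≃* DihedralGroup 3) := by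
    rw [← ho3]; exact ⟨e⟩
  obtain ⟨e'⟩ := key
  exact Cfsg.Agent.Helper26.involves_of_surj (Subgroup.closure ({t, t * y} : Set G))
    ((e'.trans Cfsg.Agent.S0444.d3Iso).toMonoidHom) (e'.trans Cfsg.Agent.S0444.d3Iso).surjective

/-- An involution whose centralizer in an elementary abelian 2-group `U` has index less than four
acts on `U` as a transvection (or trivially). -/
theorem transvection_of_card {X : Type*} [Group X] [Finite X] (U : Subgroup X)
    (hUc : ∀ u ∈ U, ∀ v ∈ U, u * v = v * u) (hU2 : ∀ u ∈ U, u * u = 1) (a : X)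
    (haU : ∀ u ∈ U, a * u * a⁻¹ ∈ U) (ha2 : a * a = 1)
    (hlt : Nat.card U < 4 * Nat.card ↥(U ⊓ Subgroup.centralizer ({a} : Set X))) :
    ∃ c ∈ U, a * c * a⁻¹ = c ∧ ∀ u ∈ U, a * u * a⁻¹ = u ∨ a * u * a⁻¹ = u * c := by
  obtain ⟨C, hC⟩ : ∃ C, C = U ⊓ Subgroup.centralizer ({a} : Set X) := ⟨_, rfl⟩
  rw [← hC] at hlt
  have hCU : C ≤ U := hC ▸ inf_le_left
  have hCa : ∀ u ∈ C, a * u * a⁻¹ = u := by
    intro u hu
    rw [hC] at hu
    have h1 := Subgroup.mem_centralizer_iff.mp hu.2 a (Set.mem_singleton a)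
    rw [h1, mul_inv_cancel_right]
  have hinvU : ∀ u ∈ U, u⁻¹ = u := fun u hu => inv_eq_of_mul_eq_one_left (hU2 u hu)
  by_cases hall : U ≤ C
  · exact ⟨1, one_mem _, by group, fun u hu => Or.inl (hCa u (hall hu))⟩
  · obtain ⟨u₀, hu₀U, hu₀C⟩ := SetLike.not_le_iff_exists.mp hall
    have hcard : Nat.card C * C.relIndex U = Nat.card U := by
      have h1 := Subgroup.relIndex_mul_relIndex ⊥ C U bot_le hCU
      rwa [Subgroup.relIndex_bot_left, Subgroup.relIndex_bot_left] at h1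
    have hpU : IsPGroup 2 U := by
      intro u
      refine ⟨1, Subtype.ext ?_⟩
      rw [pow_one]
      have h1 := hU2 u u.2
      simpa [pow_two] using h1
    obtain ⟨k, hk⟩ := hpU.exists_card_eq
    have hdvd : C.relIndex U ∣ 2 ^ k := hk ▸ Dvd.intro_left _ hcard
    obtain ⟨j, hj, hjeq⟩ := (Nat.dvd_prime_pow Nat.prime_two).mp hdvd
    have hCpos : 0 < Nat.card C := Nat.card_pos
    have hlt4 : C.relIndex U < 4 := by
      by_contra h
      push Not at h
      have h1 : Nat.card C * 4 ≤ Nat.card C * C.relIndex U := Nat.mul_le_mul_left _ h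
      omega
    have hne1 : C.relIndex U ≠ 1 := fun h => hall (Subgroup.relIndex_eq_one.mp h)
    have hidx : C.relIndex U = 2 := by
      have hj1 : j ≤ 1 := by
        by_contra h
        push Not at h
        have h1 : 2 ^ 2 ≤ 2 ^ j := Nat.pow_le_pow_right (by norm_num) h
        omega
      interval_cases j
      · exact absurd (by simpa using hjeq) hne1
      · simpa using hjeq
    have hidx' : (C.subgroupOf U).index = 2 := hidx
    have hcos : ∀ u ∈ U, u ∉ C → u₀⁻¹ * u ∈ C := by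
      intro u hu huC
      have h1 : ((⟨u₀, hu₀U⟩ : U)⁻¹ * ⟨u, hu⟩) ∈ C.subgroupOf U ↔
          (((⟨u₀, hu₀U⟩ : U)⁻¹ ∈ C.subgroupOf U) ↔ ((⟨u, hu⟩ : U) ∈ C.subgroupOf U)) :=
        Subgroup.mul_mem_iff_of_index_two hidx'
      have h2 : ((⟨u₀, hu₀U⟩ : U)⁻¹ ∈ C.subgroupOf U) ↔ ((⟨u, hu⟩ : U) ∈ C.subgroupOf U) := by
        constructor
        · intro h
          exact absurd (Subgroup.mem_subgroupOf.mp ((inv_mem_iff).mp h)) hu₀C
        · intro h
          exact absurd (Subgroup.mem_subgroupOf.mp h) huC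
      exact Subgroup.mem_subgroupOf.mp (h1.mpr h2)
    obtain ⟨c, hc⟩ : ∃ c, c = u₀⁻¹ * (a * u₀ * a⁻¹) := ⟨_, rfl⟩
    have hw : a * u₀ * a⁻¹ ∈ U := haU u₀ hu₀U
    have hcU : c ∈ U := hc ▸ U.mul_mem (U.inv_mem hu₀U) hw
    refine ⟨c, hcU, ?_, ?_⟩
    · have h1 : a * (u₀⁻¹ * (a * u₀ * a⁻¹)) * a⁻¹ =
          (a * u₀ * a⁻¹)⁻¹ * ((a * a) * u₀ * (a * a)⁻¹) := by group
      rw [hc, h1, ha2, one_mul, inv_one, mul_one, hinvU _ hw, hinvU _ hu₀U]
      exact hUc _ hw _ hu₀U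
    · intro u hu
      by_cases huC : u ∈ C
      · exact Or.inl (hCa u huC)
      · right
        have h := hCa _ (hcos u hu huC)
        have h3 : a * u * a⁻¹ = (a * u₀ * a⁻¹) * (a * (u₀⁻¹ * u) * a⁻¹) := by group
        rw [h3, h, hc]
        have e1 := hUc _ hw _ (U.mul_mem (U.inv_mem hu₀U) hu)
        rw [e1, hUc _ (U.inv_mem hu₀U) _ hu, mul_assoc]

/-- If conjugation by `h` moves every element of `U` inside its coset modulo `Z ≤ U`, so does every
power of `h`. -/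
theorem coset_stable_pow {X : Type*} [Group X] (U Z : Subgroup X) (hZU : Z ≤ U) (h : X)
    (hZ : ∀ u ∈ U, u⁻¹ * (h * u * h⁻¹) ∈ Z) :
    ∀ j : ℕ, ∀ u ∈ U, u⁻¹ * (h ^ j * u * (h ^ j)⁻¹) ∈ Z := by
  intro j
  induction j with
  | zero => intro u _; simp
  | succ j ih =>
    intro u hu
    have hv : h * u * h⁻¹ ∈ U := by
      have h1 := U.mul_mem hu (hZU (hZ u hu))
      rwa [mul_inv_cancel_left] at h1
    have h2 := Z.mul_mem (hZ u hu) (ih _ hv)
    have h3 : u⁻¹ * (h ^ (j + 1) * u * (h ^ (j + 1))⁻¹) =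
        u⁻¹ * (h * u * h⁻¹) * ((h * u * h⁻¹)⁻¹ * (h ^ j * (h * u * h⁻¹) * (h ^ j)⁻¹)) := by
      rw [pow_succ]; group
    rw [h3]; exact h2

/-- Coprime action: if `g` has odd order and the commutator of `u` with `g` is an involution
commuting with `g`, then `g` fixes `u`. -/
theorem fix_of_comm_odd {X : Type*} [Group X] (g u : X) (m : ℕ) (hm : Odd m) (hgm : g ^ m = 1)
    (hw2 : (u⁻¹ * (g * u * g⁻¹)) * (u⁻¹ * (g * u * g⁻¹)) = 1)
    (hwg : g * (u⁻¹ * (g * u * g⁻¹)) = (u⁻¹ * (g * u * g⁻¹)) * g) : g * u * g⁻¹ = u := by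
  obtain ⟨w, hw⟩ : ∃ w, w = u⁻¹ * (g * u * g⁻¹) := ⟨_, rfl⟩
  rw [← hw] at hw2 hwg
  have hgu : g * u * g⁻¹ = u * w := by rw [hw]; group
  have hc : Commute g w := hwg
  have key : ∀ k : ℕ, g ^ k * u * (g ^ k)⁻¹ = u * w ^ k := by
    intro k
    induction k with
    | zero => simp
    | succ k ih =>
      have h1 : g ^ (k + 1) * u * (g ^ (k + 1))⁻¹ = g * (g ^ k * u * (g ^ k)⁻¹) * g⁻¹ := by
        rw [pow_succ']; group
      rw [h1, ih]
      have h2 : g * (u * w ^ k) * g⁻¹ = (g * u * g⁻¹) * (g * w ^ k * g⁻¹) := by group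
      rw [h2, hgu, (hc.pow_right k).eq, mul_inv_cancel_right, mul_assoc, ← pow_succ']
  have h3 := key m
  rw [hgm, one_mul, inv_one, mul_one] at h3
  have h4 : w ^ m = 1 := by
    have h5 : u * w ^ m = u * 1 := by rw [mul_one]; exact h3.symm
    exact mul_left_cancel h5
  obtain ⟨r, hr⟩ := hm
  have hw1 : w = 1 := by
    rw [hr, pow_succ, pow_mul, pow_two, hw2, one_pow, one_mul] at h4
    exact h4
  rw [hgu, hw1, mul_one]

/-- Coprime action: if `g ^ m = 1` and the commutator `w` of `u` with `g` commutes with `g` and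
satisfies `w ^ p = 1` with `m`, `p` coprime, then `g` fixes `u`. -/
theorem fix_of_comm_coprime {X : Type*} [Group X] (g u : X) (m p : ℕ) (hmp : Nat.Coprime m p)
    (hgm : g ^ m = 1) (hwp : (u⁻¹ * (g * u * g⁻¹)) ^ p = 1)
    (hwg : g * (u⁻¹ * (g * u * g⁻¹)) = (u⁻¹ * (g * u * g⁻¹)) * g) : g * u * g⁻¹ = u := by
  obtain ⟨w, hw⟩ : ∃ w, w = u⁻¹ * (g * u * g⁻¹) := ⟨_, rfl⟩
  rw [← hw] at hwp hwg
  have hgu : g * u * g⁻¹ = u * w := by rw [hw]; group
  have hc : Commute g w := hwg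
  have key : ∀ k : ℕ, g ^ k * u * (g ^ k)⁻¹ = u * w ^ k := by
    intro k
    induction k with
    | zero => simp
    | succ k ih =>
      have h1 : g ^ (k + 1) * u * (g ^ (k + 1))⁻¹ = g * (g ^ k * u * (g ^ k)⁻¹) * g⁻¹ := by
        rw [pow_succ']; group
      rw [h1, ih]
      have h2 : g * (u * w ^ k) * g⁻¹ = (g * u * g⁻¹) * (g * w ^ k * g⁻¹) := by group
      rw [h2, hgu, (hc.pow_right k).eq, mul_inv_cancel_right, mul_assoc, ← pow_succ']
  have h3 := key m
  rw [hgm, one_mul, inv_one, mul_one] at h3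
  have h4 : w ^ m = 1 := by
    have h5 : u * w ^ m = u * 1 := by rw [mul_one]; exact h3.symm
    exact mul_left_cancel h5
  have hd : orderOf w ∣ Nat.gcd m p :=
    Nat.dvd_gcd (orderOf_dvd_of_pow_eq_one h4) (orderOf_dvd_of_pow_eq_one hwp)
  have hg1 : Nat.gcd m p = 1 := hmp
  rw [hg1, Nat.dvd_one] at hd
  have hw1 : w = 1 := orderOf_eq_one_iff.mp hd
  rw [hgu, hw1, mul_one]

/-- Thompson's `P × Q` lemma, elementary abelian case: a `p'`-element `g` commuting with the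
`p`-group `B`, both normalizing the elementary abelian `p`-group `V`, centralizes `V` as soon as it
centralizes `C_V(B)`. -/
theorem pq_fix {X : Type*} [Group X] [Finite X] {p : ℕ} [Fact p.Prime] (V : Subgroup X)
    (hVc : ∀ a ∈ V, ∀ b ∈ V, a * b = b * a) (hVp : ∀ a ∈ V, a ^ p = 1)
    (g : X) (hgV : ∀ v ∈ V, g * v * g⁻¹ ∈ V) (m : ℕ) (hgm : g ^ m = 1) (hmp : Nat.Coprime m p)
    (B : Subgroup X) (hB : IsPGroup p B) (hBV : ∀ d ∈ B, ∀ v ∈ V, d * v * d⁻¹ ∈ V)
    (hBg : ∀ d ∈ B, d * g = g * d)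
    (hfix : ∀ v ∈ V, (∀ d ∈ B, d * v = v * d) → g * v * g⁻¹ = v) :
    ∀ v ∈ V, g * v * g⁻¹ = v := by
  classical
  obtain ⟨N, hN⟩ : ∃ N : Subgroup X, ∀ n, n ∈ N ↔ ∃ v ∈ V, n = v⁻¹ * (g * v * g⁻¹) := by
    refine ⟨{ carrier := {n | ∃ v ∈ V, n = v⁻¹ * (g * v * g⁻¹)}
              mul_mem' := ?_
              one_mem' := ⟨1, one_mem _, by group⟩
              inv_mem' := ?_ }, fun _ => Iff.rfl⟩
    · rintro _ _ ⟨v, hv, rfl⟩ ⟨w, hw, rfl⟩
      refine ⟨v * w, mul_mem hv hw, ?_⟩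
      have ha : g * v * g⁻¹ ∈ V := hgV _ hv
      have h1 : (g * v * g⁻¹) * w⁻¹ = w⁻¹ * (g * v * g⁻¹) := hVc _ ha _ (inv_mem hw)
      have h2 : v⁻¹ * w⁻¹ = w⁻¹ * v⁻¹ := hVc _ (inv_mem hv) _ (inv_mem hw)
      calc v⁻¹ * (g * v * g⁻¹) * (w⁻¹ * (g * w * g⁻¹))
          = v⁻¹ * ((g * v * g⁻¹) * w⁻¹) * (g * w * g⁻¹) := by group
        _ = v⁻¹ * (w⁻¹ * (g * v * g⁻¹)) * (g * w * g⁻¹) := by rw [h1]
        _ = (v⁻¹ * w⁻¹) * (g * (v * w) * g⁻¹) := by group
        _ = (w⁻¹ * v⁻¹) * (g * (v * w) * g⁻¹) := by rw [h2]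
        _ = (v * w)⁻¹ * (g * (v * w) * g⁻¹) := by group
    · rintro _ ⟨v, hv, rfl⟩
      refine ⟨v⁻¹, inv_mem hv, ?_⟩
      have ha : g * v * g⁻¹ ∈ V := hgV _ hv
      have h1 : v⁻¹ * (g * v * g⁻¹) = (g * v * g⁻¹) * v⁻¹ := hVc _ (inv_mem hv) _ ha
      calc (v⁻¹ * (g * v * g⁻¹))⁻¹ = ((g * v * g⁻¹) * v⁻¹)⁻¹ := by rw [h1]
        _ = v⁻¹⁻¹ * (g * v⁻¹ * g⁻¹) := by group
  have hNV : N ≤ V := by
    intro n hn
    obtain ⟨v, hv, rfl⟩ := (hN n).mp hn
    exact mul_mem (inv_mem hv) (hgV _ hv)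
  have hNg : ∀ n ∈ N, g * n = n * g → n = 1 := by
    intro n hn hcomm
    obtain ⟨v, hv, rfl⟩ := (hN n).mp hn
    have h1 := fix_of_comm_coprime g v m p hmp hgm (hVp _ (hNV hn)) hcomm
    rw [h1, inv_mul_cancel]
  have hBN : ∀ d ∈ B, ∀ n ∈ N, d * n * d⁻¹ ∈ N := by
    intro d hd n hn
    obtain ⟨v, hv, rfl⟩ := (hN n).mp hn
    refine (hN _).mpr ⟨d * v * d⁻¹, hBV d hd v hv, ?_⟩
    have e1 : d * (v⁻¹ * (g * v * g⁻¹)) * d⁻¹ = (d * v * d⁻¹)⁻¹ * ((d * g) * v * (d * g)⁻¹) := by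
      group
    rw [e1, hBg d hd]; group
  letI : MulAction ↥B ↥N :=
    { smul := fun t n => ⟨(t : X) * n.1 * (t : X)⁻¹, hBN t.1 t.2 n.1 n.2⟩
      one_smul := fun n => Subtype.ext (by
        show (1 : X) * n.1 * (1 : X)⁻¹ = n.1
        group)
      mul_smul := fun s t n => Subtype.ext (by
        show ((s : X) * (t : X)) * n.1 * ((s : X) * (t : X))⁻¹
          = (s : X) * ((t : X) * n.1 * (t : X)⁻¹) * (s : X)⁻¹
        group) }
  have hmod := hB.card_modEq_card_fixedPoints ↥N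
  have hfixed : ∀ n : ↥N, n ∈ MulAction.fixedPoints ↥B ↥N → n = 1 := by
    intro n hn
    have hn' : ∀ t : ↥B, (t : X) * n.1 * (t : X)⁻¹ = n.1 := by
      intro t
      have h := congrArg Subtype.val (hn t)
      exact h
    have hDn : ∀ d ∈ B, d * n.1 = n.1 * d := by
      intro d hd
      have h1 := hn' ⟨d, hd⟩
      calc d * n.1 = d * n.1 * d⁻¹ * d := by group
        _ = n.1 * d := by rw [h1]
    have h4 := hfix n.1 (hNV n.2) hDn
    have h5 : g * n.1 = n.1 * g := by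
      calc g * n.1 = g * n.1 * g⁻¹ * g := by group
        _ = n.1 * g := by rw [h4]
    exact Subtype.ext (hNg n.1 n.2 h5)
  have hcard1 : Nat.card (MulAction.fixedPoints ↥B ↥N) = 1 := by
    rw [Nat.card_eq_one_iff_unique]
    constructor
    · constructor
      intro a b
      apply Subtype.ext
      rw [hfixed a.1 a.2, hfixed b.1 b.2]
    · refine ⟨⟨1, ?_⟩⟩
      intro t
      apply Subtype.ext
      show (t : X) * (1 : X) * (t : X)⁻¹ = 1
      group
  rw [hcard1] at hmod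
  have hNp : IsPGroup p ↥N := by
    intro n
    refine ⟨1, Subtype.ext ?_⟩
    rw [pow_one]
    exact hVp n.1 (hNV n.2)
  obtain ⟨a, ha⟩ := IsPGroup.iff_card.mp hNp
  have hN1 : Nat.card ↥N = 1 := by
    rcases Nat.eq_zero_or_pos a with h0 | hpos
    · rw [ha, h0, pow_zero]
    · exfalso
      have h1 : p ∣ Nat.card ↥N := by rw [ha]; exact dvd_pow_self p hpos.ne'
      have h2 : Nat.card ↥N % p = 1 % p := hmod
      have h3 : Nat.card ↥N % p = 0 := Nat.mod_eq_zero_of_dvd h1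
      have hp2 : 2 ≤ p := (Fact.out : p.Prime).two_le
      rw [h3, Nat.mod_eq_of_lt (by omega)] at h2
      omega
  have hNbot : N = ⊥ := Subgroup.eq_bot_of_card_eq N hN1
  intro v hv
  have h1 : v⁻¹ * (g * v * g⁻¹) ∈ N := (hN _).mpr ⟨v, hv, rfl⟩
  rw [hNbot, Subgroup.mem_bot] at h1
  calc g * v * g⁻¹ = v * (v⁻¹ * (g * v * g⁻¹)) := by group
    _ = v := by rw [h1, mul_one]

/-- **Quadratic bound.** Let `M` act faithfully on the elementary abelian 2-group `V`, let `O ≤ M`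
be a normal subgroup of odd order containing its centralizer in `M`, and suppose that `S₃` is not
involved in `M`. Then every elementary abelian 2-subgroup `A` of `M` satisfies
`|C_V(A)| * |A|^2 ≤ |V|`. -/
theorem card_fix_le {X : Type*} [Group X] [Finite X] (M V O : Subgroup X)
    (hVc : ∀ a ∈ V, ∀ b ∈ V, a * b = b * a) (hV2 : ∀ a ∈ V, a ^ 2 = 1)
    (hMV : M ≤ Subgroup.normalizer (V : Set X))
    (hfaith : M ⊓ Subgroup.centralizer (V : Set X) = ⊥)
    (hOM : O ≤ M) (hMO : M ≤ Subgroup.normalizer (O : Set X)) (hOodd : ¬ 2 ∣ Nat.card O)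
    (hcon : M ⊓ Subgroup.centralizer (O : Set X) ≤ O)
    (hS3 : ¬ Cfsg.Involves (Equiv.Perm (Fin 3)) ↥M) :
    ∀ n : ℕ, ∀ A : Subgroup X, Nat.card A = n → A ≤ M → IsElementaryAbelian 2 A →
      Nat.card ↥(V ⊓ Subgroup.centralizer (A : Set X)) * Nat.card A ^ 2 ≤ Nat.card V := by
  intro n
  induction n using Nat.strong_induction_on with
  | _ n ih =>
  intro A hAn hAM hA
  by_cases hAbot : A = ⊥
  · rw [hAbot]
    simp only [Subgroup.card_bot, one_pow, mul_one]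
    exact Subgroup.card_le_of_le inf_le_left
  have hA' := hA
  rw [Cfsg.Agent.Helper3.isElementaryAbelian_iff] at hA
  obtain ⟨hAc, hA2⟩ := hA
  have hgen := Cfsg.Agent.Helper9.hyperplane_generation 2 A O hA' hOodd (hAM.trans hMO)
  have hAO : ¬ A ≤ Subgroup.centralizer (O : Set X) := by
    intro h
    apply hAbot
    rw [eq_bot_iff]
    intro a ha
    have haO : a ∈ O := hcon ⟨hAM ha, h ha⟩
    have h2 : a ^ 2 = 1 := hA2 a ha
    have hd1 : orderOf a ∣ 2 := orderOf_dvd_of_pow_eq_one h2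
    have hd2 : orderOf a ∣ Nat.card O := Subgroup.orderOf_dvd_natCard O haO
    have h1 : orderOf a = 1 := by
      rcases (Nat.dvd_prime Nat.prime_two).mp hd1 with h | h
      · exact h
      · exfalso; exact hOodd (h ▸ hd2)
    exact orderOf_eq_one_iff.mp h1
  obtain ⟨B, hBA, hBidx, x, hxO, hxB, a, haA, hxa⟩ : ∃ B : Subgroup X, B ≤ A ∧ B.relIndex A ≤ 2 ∧
      ∃ x ∈ O, x ∈ Subgroup.centralizer (B : Set X) ∧ ∃ a ∈ A, x * a ≠ a * x := by
    by_contra hcon'
    push Not at hcon'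
    apply hAO
    intro a ha
    rw [Subgroup.mem_centralizer_iff]
    have hO_le : O ≤ Subgroup.centralizer ({a} : Set X) := by
      refine le_trans hgen.le (iSup_le ?_)
      rintro ⟨B, hBA, hBidx⟩ x hx
      rw [Subgroup.mem_centralizer_iff]
      intro z hz
      rw [Set.mem_singleton_iff] at hz
      rw [hz]
      exact (hcon' B hBA hBidx x hx.1 hx.2 a ha).symm
    intro h hh
    have h1 := hO_le hh
    rw [Subgroup.mem_centralizer_iff] at h1
    exact (h1 a (Set.mem_singleton a)).symm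
  have ha2 : a * a = 1 := by
    have h1 := hA2 a haA
    rwa [pow_two] at h1
  have hainv : a⁻¹ = a := inv_eq_of_mul_eq_one_left ha2
  have haM : a ∈ M := hAM haA
  have hxB' := Subgroup.mem_centralizer_iff.mp hxB
  have haB : a ∉ B := fun h => hxa (hxB' a h).symm
  have hcardAB : Nat.card A = 2 * Nat.card B := by
    have h1 := Subgroup.relIndex_mul_relIndex ⊥ B A bot_le hBA
    rw [Subgroup.relIndex_bot_left, Subgroup.relIndex_bot_left] at h1
    have hne1 : B.relIndex A ≠ 1 := fun h => haB (Subgroup.relIndex_eq_one.mp h haA)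
    have hne0 : B.relIndex A ≠ 0 := by
      intro h
      rw [h, mul_zero] at h1
      have : 0 < Nat.card A := Nat.card_pos
      omega
    have h2 : B.relIndex A = 2 := by omega
    rw [h2] at h1
    omega
  -- the element `y` inverted by `a`
  obtain ⟨y, hy⟩ : ∃ y, y = x⁻¹ * (a * x * a⁻¹) := ⟨_, rfl⟩
  have hyinv : a * y * a⁻¹ = y⁻¹ := by
    have h1 : a * (x⁻¹ * (a * x * a⁻¹)) * a⁻¹ = (a * x * a⁻¹)⁻¹ * ((a * a) * x * (a * a)⁻¹) := by
      group
    rw [hy, h1, ha2]; group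
  have hy1 : y ≠ 1 := by
    intro h
    rw [hy] at h
    have h1 : x = a * x * a⁻¹ := inv_mul_eq_one.mp h
    apply hxa
    calc x * a = (a * x * a⁻¹) * a := by rw [← h1]
      _ = a * x := by group
  have haxO : a * x * a⁻¹ ∈ O := (Subgroup.mem_normalizer_iff.mp (hMO haM) x).mp hxO
  have hyO : y ∈ O := hy ▸ O.mul_mem (O.inv_mem hxO) haxO
  have hyM : y ∈ M := hOM hyO
  have hyB : ∀ b ∈ B, Commute b y := by
    intro b hb
    have c1 : Commute b x := hxB' b hb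
    have c2 : Commute b a := (hAc a haA b (hBA hb)).symm
    rw [hy]
    exact (c1.inv_right).mul_right ((c2.mul_right c1).mul_right c2.inv_right)
  obtain ⟨m, hm⟩ : ∃ m, m = orderOf y := ⟨_, rfl⟩
  have hmodd : Odd m := by
    rw [← Nat.not_even_iff_odd]
    intro he
    apply hOodd
    have hd2 : orderOf y ∣ Nat.card O := Subgroup.orderOf_dvd_natCard O hyO
    exact dvd_trans (hm ▸ even_iff_two_dvd.mp he) hd2
  have hym : y ^ m = 1 := hm ▸ pow_orderOf_eq_one y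
  -- the subgroup `U = C_V(B)`
  obtain ⟨U, hU⟩ : ∃ U, U = V ⊓ Subgroup.centralizer (B : Set X) := ⟨_, rfl⟩
  have hUV : U ≤ V := hU ▸ inf_le_left
  have hBpos : 0 < Nat.card B := Nat.card_pos
  have ihB : Nat.card ↥(V ⊓ Subgroup.centralizer (B : Set X)) * Nat.card B ^ 2 ≤ Nat.card V :=
    ih (Nat.card B) (by omega) B rfl (hBA.trans hAM)
      (Cfsg.Agent.Helper3.isElementaryAbelian_iff.mpr
        ⟨fun a ha b hb => hAc a (hBA ha) b (hBA hb), fun a ha => hA2 a (hBA ha)⟩)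
  suffices key : 4 * Nat.card ↥(U ⊓ Subgroup.centralizer ({a} : Set X)) ≤ Nat.card U by
    have h1 : Nat.card ↥(V ⊓ Subgroup.centralizer (A : Set X)) ≤
        Nat.card ↥(U ⊓ Subgroup.centralizer ({a} : Set X)) := by
      apply Subgroup.card_le_of_le
      intro v hv
      refine ⟨?_, ?_⟩
      · rw [hU]
        exact ⟨hv.1, Subgroup.centralizer_le (by exact_mod_cast hBA) hv.2⟩
      · exact Subgroup.centralizer_le (Set.singleton_subset_iff.mpr haA) hv.2
    calc Nat.card ↥(V ⊓ Subgroup.centralizer (A : Set X)) * Nat.card A ^ 2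
        ≤ Nat.card ↥(U ⊓ Subgroup.centralizer ({a} : Set X)) * (2 * Nat.card B) ^ 2 := by
          rw [hcardAB]; exact Nat.mul_le_mul_right _ h1
      _ = (4 * Nat.card ↥(U ⊓ Subgroup.centralizer ({a} : Set X))) * Nat.card B ^ 2 := by ring
      _ ≤ Nat.card U * Nat.card B ^ 2 := Nat.mul_le_mul_right _ key
      _ ≤ Nat.card V := by rw [hU]; exact ihB
  by_contra hlt
  push Not at hlt
  apply hS3
  have hUc : ∀ u ∈ U, ∀ v ∈ U, u * v = v * u := fun u hu v hv => hVc u (hUV hu) v (hUV hv)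
  have hU2 : ∀ u ∈ U, u * u = 1 := by
    intro u hu
    have h1 := hV2 u (hUV hu)
    rwa [pow_two] at h1
  have hinvU : ∀ u ∈ U, u⁻¹ = u := fun u hu => inv_eq_of_mul_eq_one_left (hU2 u hu)
  have hnormU : ∀ g ∈ M, (∀ b ∈ B, Commute b g) → ∀ u ∈ U, g * u * g⁻¹ ∈ U := by
    intro g hg hgB u hu
    rw [hU] at hu ⊢
    refine Subgroup.mem_inf.mpr ⟨(Subgroup.mem_normalizer_iff.mp (hMV hg) u).mp hu.1, ?_⟩
    rw [Subgroup.mem_centralizer_iff]
    intro b hb
    have cg : Commute b g := hgB b hb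
    have cu : Commute b u := Subgroup.mem_centralizer_iff.mp hu.2 b hb
    exact ((cg.mul_right cu).mul_right cg.inv_right).eq
  have haBc : ∀ b ∈ B, Commute b a := fun b hb => (hAc a haA b (hBA hb)).symm
  have haU : ∀ u ∈ U, a * u * a⁻¹ ∈ U := hnormU a haM haBc
  have hyU : ∀ u ∈ U, y * u * y⁻¹ ∈ U := hnormU y hyM hyB
  have hyU' : ∀ u ∈ U, y⁻¹ * u * y ∈ U := by
    intro u hu
    have h1 := hnormU y⁻¹ (M.inv_mem hyM) (fun b hb => (hyB b hb).inv_right) u hu
    rwa [inv_inv] at h1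
  obtain ⟨c, hcU, hac, htr⟩ := transvection_of_card U hUc hU2 a haU ha2 hlt
  obtain ⟨c', hc'⟩ : ∃ c', c' = y * c * y⁻¹ := ⟨_, rfl⟩
  have hc'U : c' ∈ U := hc' ▸ hyU c hcU
  -- `(y*y)⁻¹ = a * (y a y⁻¹)`
  have hconj : (y * y)⁻¹ = a * (y * a * y⁻¹) := by
    have h1 : a * (y * a * y⁻¹) = (a * y * a⁻¹) * (a * a) * y⁻¹ := by group
    rw [h1, hyinv, ha2]; group
  -- conjugation by `y a y⁻¹`
  have htr' : ∀ u ∈ U, (y * a * y⁻¹) * u * (y * a * y⁻¹)⁻¹ = u ∨
      (y * a * y⁻¹) * u * (y * a * y⁻¹)⁻¹ = u * c' := by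
    intro u hu
    have h1 : (y * a * y⁻¹) * u * (y * a * y⁻¹)⁻¹ = y * (a * (y⁻¹ * u * y) * a⁻¹) * y⁻¹ := by
      group
    rcases htr _ (hyU' u hu) with h | h
    · left; rw [h1, h]; group
    · right; rw [h1, h, hc']; group
  -- `y³` commutes with `c`
  have hyodd : ∀ z : X, Commute (y * y) z → Commute y z := by
    intro z hz
    obtain ⟨r, hr⟩ := hmodd
    have h1 : y = (y * y) ^ (r + 1) := by
      rw [← pow_two, ← pow_mul]
      have h2 : 2 * (r + 1) = m + 1 := by omega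
      rw [h2, pow_succ, hym, one_mul]
    rw [h1]
    exact hz.pow_left _
  have hc3 : Commute (y ^ 3) c := by
    -- `y⁻¹ c y = (y*y)⁻¹ c' (y*y)`
    have h1 : y⁻¹ * c * y = (y * y)⁻¹ * c' * (y * y) := by rw [hc']; group
    have h2 : (y * a * y⁻¹) * c' * (y * a * y⁻¹)⁻¹ = c' := by
      have h3 : (y * a * y⁻¹) * (y * c * y⁻¹) * (y * a * y⁻¹)⁻¹ = y * (a * c * a⁻¹) * y⁻¹ := by
        group
      rw [hc', h3, hac]
    have h4 : (y * y)⁻¹ * c' * (y * y) = a * c' * a⁻¹ := by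
      have h5 : (y * y)⁻¹ * c' * (y * y) = (y * y)⁻¹ * c' * ((y * y)⁻¹)⁻¹ := by rw [inv_inv]
      rw [h5, hconj]
      have h6 : a * (y * a * y⁻¹) * c' * (a * (y * a * y⁻¹))⁻¹ =
          a * ((y * a * y⁻¹) * c' * (y * a * y⁻¹)⁻¹) * a⁻¹ := by group
      rw [h6, h2]
    rw [h4] at h1
    rcases htr c' hc'U with h | h
    · -- `y⁻¹ c y = c' = y c y⁻¹`
      rw [h] at h1
      have h7 : Commute (y * y) c := by
        have h8 : (y * y) * c * (y * y)⁻¹ = y * (y * c * y⁻¹) * y⁻¹ := by group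
        have h9 : (y * y) * c * (y * y)⁻¹ = c := by
          rw [h8, ← hc', ← h1]; group
        have h10 : (y * y) * c = (y * y) * c * (y * y)⁻¹ * (y * y) := by group
        show (y * y) * c = c * (y * y)
        rw [h10, h9]
      exact (hyodd c h7).pow_left 3
    · -- `y⁻¹ c y = c' * c`
      rw [h] at h1
      -- conjugate by `y` : `c = (y c' y⁻¹) * c'`
      obtain ⟨c'', hc''⟩ : ∃ c'', c'' = y * c' * y⁻¹ := ⟨_, rfl⟩
      have hc''U : c'' ∈ U := hc'' ▸ hyU c' hc'U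
      have h7 : c = c'' * c' := by
        have h8 : c = y * (y⁻¹ * c * y) * y⁻¹ := by group
        have h9 : y * (c' * c) * y⁻¹ = (y * c' * y⁻¹) * (y * c * y⁻¹) := by group
        rw [h8, h1, h9, ← hc'', ← hc']
      have h10 : c'' = c * c' := by
        rw [h7, mul_assoc, hU2 c' hc'U, mul_one]
      have h11 : y * c'' * y⁻¹ = c := by
        have h12 : y * (c * c') * y⁻¹ = (y * c * y⁻¹) * (y * c' * y⁻¹) := by group
        rw [h10, h12, ← hc', ← hc'', h10, hUc c hcU c' hc'U, ← mul_assoc, hU2 c' hc'U, one_mul]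
      have h13 : y ^ 3 * c * (y ^ 3)⁻¹ = c := by
        have h14 : y ^ 3 * c * (y ^ 3)⁻¹ = y * (y * (y * c * y⁻¹) * y⁻¹) * y⁻¹ := by
          simp only [pow_succ, pow_zero, one_mul, mul_inv_rev, mul_assoc]
        rw [h14, ← hc', ← hc'', h11]
      have h15 : y ^ 3 * c = y ^ 3 * c * (y ^ 3)⁻¹ * y ^ 3 := by group
      show y ^ 3 * c = c * y ^ 3
      rw [h15, h13]
  have hc3' : Commute (y ^ 3) c' := by
    have hy3y : Commute (y ^ 3) y := (Commute.refl y).pow_left 3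
    rw [hc']
    exact (hy3y.mul_right hc3).mul_right hy3y.inv_right
  obtain ⟨Z, hZ⟩ : ∃ Z, Z = U ⊓ Subgroup.centralizer ({y ^ 3} : Set X) := ⟨_, rfl⟩
  have hZU : Z ≤ U := hZ ▸ inf_le_left
  have hmemZ : ∀ z ∈ U, Commute (y ^ 3) z → z ∈ Z := by
    intro z hz hcz
    rw [hZ]
    refine Subgroup.mem_inf.mpr ⟨hz, ?_⟩
    rw [Subgroup.mem_centralizer_iff]
    intro h hh
    rw [Set.mem_singleton_iff] at hh
    rw [hh]
    exact hcz.eq
  have hcZ : c ∈ Z := hmemZ c hcU hc3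
  have hc'Z : c' ∈ Z := hmemZ c' hc'U hc3'
  have hSa : ∀ u ∈ U, u⁻¹ * (a * u * a⁻¹) ∈ Z := by
    intro u hu
    rcases htr u hu with h | h
    · rw [h, inv_mul_cancel]; exact one_mem _
    · rw [h, inv_mul_cancel_left]; exact hcZ
  have hSa' : ∀ u ∈ U, u⁻¹ * ((y * a * y⁻¹) * u * (y * a * y⁻¹)⁻¹) ∈ Z := by
    intro u hu
    rcases htr' u hu with h | h
    · rw [h, inv_mul_cancel]; exact one_mem _
    · rw [h, inv_mul_cancel_left]; exact hc'Z
  have hSh : ∀ u ∈ U, u⁻¹ * ((y * y)⁻¹ * u * ((y * y)⁻¹)⁻¹) ∈ Z := by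
    intro u hu
    have hv : (y * a * y⁻¹) * u * (y * a * y⁻¹)⁻¹ ∈ U := by
      have h1 := U.mul_mem hu (hZU (hSa' u hu))
      rwa [mul_inv_cancel_left] at h1
    have h2 := Z.mul_mem (hSa' u hu) (hSa _ hv)
    have h3 : u⁻¹ * ((y * y)⁻¹ * u * ((y * y)⁻¹)⁻¹) =
        u⁻¹ * ((y * a * y⁻¹) * u * (y * a * y⁻¹)⁻¹) *
          (((y * a * y⁻¹) * u * (y * a * y⁻¹)⁻¹)⁻¹ *
            (a * ((y * a * y⁻¹) * u * (y * a * y⁻¹)⁻¹) * a⁻¹)) := by
      rw [hconj]; group
    rw [h3]; exact h2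
  have hpow := coset_stable_pow U Z hZU (y * y)⁻¹ hSh
  obtain ⟨r, hr⟩ := hmodd
  have hy3eq : ((y * y)⁻¹) ^ (3 * r) = y ^ 3 := by
    rw [inv_pow, ← pow_two, ← pow_mul]
    apply inv_eq_of_mul_eq_one_left
    rw [← pow_add]
    have h2 : 3 + 2 * (3 * r) = 3 * m := by omega
    rw [h2, pow_mul', hym, one_pow]
  have hfixU : ∀ u ∈ U, y ^ 3 * u * (y ^ 3)⁻¹ = u := by
    intro u hu
    have h1 := hpow (3 * r) u hu
    rw [hy3eq] at h1
    have h1U := hZU h1
    have h1c : y ^ 3 * (u⁻¹ * (y ^ 3 * u * (y ^ 3)⁻¹)) = (u⁻¹ * (y ^ 3 * u * (y ^ 3)⁻¹)) * y ^ 3 := by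
      rw [hZ] at h1
      exact (Subgroup.mem_centralizer_iff.mp h1.2 (y ^ 3) (Set.mem_singleton _))
    refine fix_of_comm_odd (y ^ 3) u m ⟨r, hr⟩ ?_ (hU2 _ h1U) h1c
    rw [← pow_mul, mul_comm, pow_mul, hym, one_pow]
  -- P×Q lemma
  have hy3M : y ^ 3 ∈ M := M.pow_mem hyM 3
  have hBp : IsPGroup 2 B := by
    intro d
    refine ⟨1, Subtype.ext ?_⟩
    rw [pow_one]
    exact hA2 d.1 (hBA d.2)
  have hpq := pq_fix (p := 2) V hVc hV2 (y ^ 3)
    (fun v hv => (Subgroup.mem_normalizer_iff.mp (hMV hy3M) v).mp hv) m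
    (by rw [← pow_mul, mul_comm, pow_mul, hym, one_pow])
    (by rw [hr]; simp) B hBp
    (fun d hd v hv => (Subgroup.mem_normalizer_iff.mp (hMV (hAM (hBA hd))) v).mp hv)
    (fun d hd => ((hyB d hd).pow_right 3).eq)
    (fun v hv hvB => by
      have hvU : v ∈ U := by
        rw [hU]
        refine Subgroup.mem_inf.mpr ⟨hv, ?_⟩
        rw [Subgroup.mem_centralizer_iff]
        exact hvB
      exact hfixU v hvU)
  have hy3 : y ^ 3 = 1 := by
    have h1 : y ^ 3 ∈ M ⊓ Subgroup.centralizer (V : Set X) := by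
      refine Subgroup.mem_inf.mpr ⟨hy3M, ?_⟩
      rw [Subgroup.mem_centralizer_iff]
      intro v hv
      have h2 := hpq v hv
      calc v * y ^ 3 = y ^ 3 * v * (y ^ 3)⁻¹ * y ^ 3 := by rw [h2]
        _ = y ^ 3 * v := by group
    rw [hfaith] at h1
    exact Subgroup.mem_bot.mp h1
  exact involves_s3_of_inverted (⟨a, haM⟩ : ↥M) ⟨y, hyM⟩ (Subtype.ext ha2) (Subtype.ext hy3)
    (fun h => hy1 (congrArg Subtype.val h)) (Subtype.ext hyinv)

end Cfsg.Agent.Helper19.HH
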