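import Mathlib
import Cfsg.Prelude.Def_LocalEven

set_option autoImplicit false

namespace Cfsg.Agent.Helper19.NatSL2

open Matrix

section mk

variable {F : Type*} [Field F]

/-- An element of `SL₂` from its four entries. -/
def mk2 (a b c d : F) (h : a * d - b * c = 1) : Matrix.SpecialLinearGroup (Fin 2) F :=
  ⟨!![a, b; c, d], by rw [Matrix.det_fin_two_of]; exact h⟩

theorem mk2_mul (a b c d a' b' c' d' : F) (h : a * d - b * c = 1) (h' : a' * d' - b' * c' = 1) :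
    mk2 a b c d h * mk2 a' b' c' d' h' =
      mk2 (a * a' + b * c') (a * b' + b * d') (c * a' + d * c') (c * b' + d * d')
        (by linear_combination (a' * d' - b' * c') * h + h') := by
  apply Subtype.ext
  rw [Matrix.SpecialLinearGroup.coe_mul]
  exact Matrix.mul_fin_two _ _ _ _ _ _ _ _

theorem mk2_inv (a b c d : F) (h : a * d - b * c = 1) :
    (mk2 a b c d h)⁻¹ = mk2 d (-b) (-c) a (by linear_combination h) := by
  apply Subtype.ext
  rw [Matrix.SpecialLinearGroup.coe_inv]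
  exact Matrix.adjugate_fin_two_of _ _ _ _

theorem mk2_one : (1 : Matrix.SpecialLinearGroup (Fin 2) F) = mk2 1 0 0 1 (by ring) := by
  apply Subtype.ext
  rw [Matrix.SpecialLinearGroup.coe_one]
  exact Matrix.one_fin_two

theorem mk2_eta (M : Matrix.SpecialLinearGroup (Fin 2) F) :
    ∃ (a b c d : F) (h : a * d - b * c = 1), M = mk2 a b c d h := by
  have hdet := M.det_coe
  rw [Matrix.det_fin_two] at hdet
  exact ⟨_, _, _, _, hdet, Subtype.ext (Matrix.eta_fin_two _)⟩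

theorem mk2_inj {a b c d a' b' c' d' : F} {h : a * d - b * c = 1} {h' : a' * d' - b' * c' = 1}
    (e : mk2 a b c d h = mk2 a' b' c' d' h') : a = a' ∧ b = b' ∧ c = c' ∧ d = d' := by
  have e' : (!![a, b; c, d] : Matrix (Fin 2) (Fin 2) F) = !![a', b'; c', d'] :=
    congrArg Subtype.val e
  exact ⟨congrFun (congrFun e' 0) 0, congrFun (congrFun e' 0) 1, congrFun (congrFun e' 1) 0,
    congrFun (congrFun e' 1) 1⟩

theorem mk2_congr {a b c d a' b' c' d' : F} {h : a * d - b * c = 1} {h' : a' * d' - b' * c' = 1}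
    (ha : a = a') (hb : b = b') (hc : c = c') (hd : d = d') :
    mk2 a b c d h = mk2 a' b' c' d' h' := by
  subst ha hb hc hd; rfl

/-- the action on column vectors -/
def act (M : Matrix.SpecialLinearGroup (Fin 2) F) (v : Fin 2 → F) : Fin 2 → F := M.1.mulVec v

theorem act_mul (M N : Matrix.SpecialLinearGroup (Fin 2) F) (v : Fin 2 → F) :
    act (M * N) v = act M (act N v) := by
  unfold act
  rw [Matrix.SpecialLinearGroup.coe_mul, Matrix.mulVec_mulVec]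

theorem act_one (v : Fin 2 → F) : act (1 : Matrix.SpecialLinearGroup (Fin 2) F) v = v := by
  unfold act
  rw [Matrix.SpecialLinearGroup.coe_one, Matrix.one_mulVec]

theorem act_add (M : Matrix.SpecialLinearGroup (Fin 2) F) (v v' : Fin 2 → F) :
    act M (v + v') = act M v + act M v' := Matrix.mulVec_add _ _ _

theorem act_zero (M : Matrix.SpecialLinearGroup (Fin 2) F) : act M 0 = 0 := Matrix.mulVec_zero _

theorem act_apply0 (M : Matrix.SpecialLinearGroup (Fin 2) F) (v : Fin 2 → F) :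
    act M v 0 = M.1 0 0 * v 0 + M.1 0 1 * v 1 := by
  simp [act, Matrix.mulVec, dotProduct, Fin.sum_univ_two]

theorem act_apply1 (M : Matrix.SpecialLinearGroup (Fin 2) F) (v : Fin 2 → F) :
    act M v 1 = M.1 1 0 * v 0 + M.1 1 1 * v 1 := by
  simp [act, Matrix.mulVec, dotProduct, Fin.sum_univ_two]

theorem mul_entries (M N : Matrix.SpecialLinearGroup (Fin 2) F) :
    (M * N).1 0 0 = M.1 0 0 * N.1 0 0 + M.1 0 1 * N.1 1 0 ∧
    (M * N).1 0 1 = M.1 0 0 * N.1 0 1 + M.1 0 1 * N.1 1 1 ∧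
    (M * N).1 1 0 = M.1 1 0 * N.1 0 0 + M.1 1 1 * N.1 1 0 ∧
    (M * N).1 1 1 = M.1 1 0 * N.1 0 1 + M.1 1 1 * N.1 1 1 := by
  simp [Matrix.SpecialLinearGroup.coe_mul, Matrix.mul_apply, Fin.sum_univ_two]

theorem det_entries (M : Matrix.SpecialLinearGroup (Fin 2) F) :
    M.1 0 0 * M.1 1 1 - M.1 0 1 * M.1 1 0 = 1 := by
  have := M.det_coe
  rw [Matrix.det_fin_two] at this
  exact this

theorem sl_ext (M N : Matrix.SpecialLinearGroup (Fin 2) F) (h00 : M.1 0 0 = N.1 0 0)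
    (h01 : M.1 0 1 = N.1 0 1) (h10 : M.1 1 0 = N.1 1 0) (h11 : M.1 1 1 = N.1 1 1) : M = N := by
  apply Subtype.ext
  ext i j
  fin_cases i <;> fin_cases j
  · exact h00
  · exact h01
  · exact h10
  · exact h11

/-- upper unitriangular matrices -/
def u (a : F) : Matrix.SpecialLinearGroup (Fin 2) F := mk2 1 a 0 1 (by ring)

theorem u_mul (a b : F) : u a * u b = u (a + b) := by
  unfold u
  rw [mk2_mul]
  exact mk2_congr (by ring) (by ring) (by ring) (by ring)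

theorem u_zero : u (0 : F) = 1 := mk2_one.symm

theorem u_inv (a : F) : (u a)⁻¹ = u (-a) := by
  unfold u
  rw [mk2_inv]
  exact mk2_congr rfl rfl neg_zero rfl

theorem u_pow (a : F) (k : ℕ) : (u a) ^ k = u (k * a) := by
  induction k with
  | zero => rw [pow_zero, Nat.cast_zero, zero_mul, u_zero]
  | succ k ih =>
    rw [pow_succ, ih, u_mul]
    congr 1
    push_cast
    ring

theorem exists_fixed_vec [Fintype F] {p : ℕ} [Fact p.Prime] (n : ℕ) (hF : Fintype.card F = p ^ n)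
    (hn : 0 < n) (P : Subgroup (Matrix.SpecialLinearGroup (Fin 2) F)) (hP : IsPGroup p ↥P) :
    ∃ w : Fin 2 → F, w ≠ 0 ∧ ∀ g ∈ P, act g w = w := by
  classical
  letI : MulAction ↥P (Fin 2 → F) :=
    { smul := fun g w => act (g : Matrix.SpecialLinearGroup (Fin 2) F) w
      one_smul := fun w => act_one w
      mul_smul := fun g h w => act_mul _ _ w }
  have hdvd : p ∣ Nat.card (Fin 2 → F) := by
    rw [Nat.card_fun, Nat.card_fin, Nat.card_eq_fintype_card, hF]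
    exact dvd_pow (dvd_pow_self p hn.ne') (by norm_num)
  have h0 : (0 : Fin 2 → F) ∈ MulAction.fixedPoints ↥P (Fin 2 → F) := fun g => act_zero _
  obtain ⟨w, hw, hne⟩ :=
    hP.exists_fixed_point_of_prime_dvd_card_of_fixed_point (Fin 2 → F) hdvd h0
  exact ⟨w, fun h => hne h.symm, fun g hg => hw ⟨g, hg⟩⟩

theorem exists_sl_col (w : Fin 2 → F) (hw : w ≠ 0) : ∃ b d : F, w 0 * d - b * w 1 = 1 := by
  by_cases h0 : w 0 = 0
  · have h1 : w 1 ≠ 0 := by
      intro h1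
      apply hw
      funext i
      fin_cases i
      · exact h0
      · exact h1
    exact ⟨-(w 1)⁻¹, 0, by rw [mul_zero, zero_sub, neg_mul, neg_neg, inv_mul_cancel₀ h1]⟩
  · exact ⟨0, (w 0)⁻¹, by rw [mul_inv_cancel₀ h0, zero_mul, sub_zero]⟩

theorem conj_fix (w : Fin 2 → F) (b d : F) (h : w 0 * d - b * w 1 = 1)
    (M : Matrix.SpecialLinearGroup (Fin 2) F) (hM : act M w = w) :
    ∃ a, (mk2 (w 0) b (w 1) d h)⁻¹ * M * mk2 (w 0) b (w 1) d h = u a := by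
  obtain ⟨m00, m01, m10, m11, hm, rfl⟩ := mk2_eta M
  have h1 : m00 * w 0 + m01 * w 1 = w 0 := by
    have := act_apply0 (mk2 m00 m01 m10 m11 hm) w
    rw [hM] at this
    exact this.symm
  have h2 : m10 * w 0 + m11 * w 1 = w 1 := by
    have := act_apply1 (mk2 m00 m01 m10 m11 hm) w
    rw [hM] at this
    exact this.symm
  obtain ⟨n00, n01, n10, n11, hN, hNeq⟩ :=
    mk2_eta ((mk2 (w 0) b (w 1) d h)⁻¹ * mk2 m00 m01 m10 m11 hm * mk2 (w 0) b (w 1) d h)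
  have hNeq' := hNeq
  rw [mk2_inv, mk2_mul, mk2_mul] at hNeq'
  obtain ⟨e00, e01, e10, e11⟩ := mk2_inj hNeq'
  have hn00 : n00 = 1 := by rw [← e00]; linear_combination d * h1 - b * h2 + h
  have hn10 : n10 = 0 := by rw [← e10]; linear_combination (-(w 1)) * h1 + w 0 * h2
  have hn11 : n11 = 1 := by rw [hn00, hn10] at hN; linear_combination hN
  exact ⟨n01, by rw [hNeq]; exact mk2_congr hn00 rfl hn10 hn11⟩

end mk

section main

variable {G : Type*} [Group G] {F : Type*} [Field F]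

/-- Coordinates for a natural `SL₂`-module `V` for `L` with the Sylow `p`-subgroup `T` of `L` in
upper unitriangular position: `X, Y` are the two coordinates on `V` and `A, B, C, D` the four
matrix entries on `L`. -/
def IsCoord (V L T : Subgroup G) (X Y A B C D : G → F) : Prop :=
  (∀ x ∈ V, ∀ y ∈ V, X (x * y) = X x + X y ∧ Y (x * y) = Y x + Y y) ∧
  (∀ x ∈ V, ∀ y ∈ V, X x = X y → Y x = Y y → x = y) ∧
  (∀ a b : F, ∃ x ∈ V, X x = a ∧ Y x = b) ∧
  (∀ l ∈ L, ∀ x ∈ V, l * x * l⁻¹ ∈ V ∧ X (l * x * l⁻¹) = A l * X x + B l * Y x ∧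
      Y (l * x * l⁻¹) = C l * X x + D l * Y x) ∧
  (∀ l ∈ L, A l * D l - B l * C l = 1) ∧
  (∀ l ∈ L, ∀ m ∈ L, A (l * m) = A l * A m + B l * C m ∧ B (l * m) = A l * B m + B l * D m ∧
      C (l * m) = C l * A m + D l * C m ∧ D (l * m) = C l * B m + D l * D m) ∧
  (∀ l ∈ L, ∀ m ∈ L, A l = A m → B l = B m → C l = C m → D l = D m → l = m) ∧
  (∀ a b c d : F, a * d - b * c = 1 → ∃ l ∈ L, A l = a ∧ B l = b ∧ C l = c ∧ D l = d) ∧
  (∀ l ∈ L, (l ∈ T ↔ A l = 1 ∧ C l = 0 ∧ D l = 1)) ∧ T ≤ L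

theorem exists_coord [Finite G] {p : ℕ} [Fact p.Prime] [Fintype F] (n : ℕ)
    (hF : Fintype.card F = p ^ n) (V L : Subgroup G)
    (hnat : Cfsg.IsNaturalSL2Module F V L) (hf : L ⊓ Subgroup.centralizer (V : Set G) = ⊥)
    (S : Sylow p ↥L) (T : Subgroup G) (hT : T = ((S : Subgroup ↥L).map L.subtype)) :
    ∃ X Y A B C D : G → F, IsCoord V L T X Y A B C D ∧ Nat.card V = Fintype.card F ^ 2 ∧
      0 < n ∧ IsPGroup p ↥T := by
  classical
  obtain ⟨hLN, ρ, ψ, hsurj, hker, hact⟩ := hnat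
  haveI hchar : CharP F p := charP_of_card_eq_prime_pow hF
  have hn : 0 < n := by
    rcases Nat.eq_zero_or_pos n with h | h
    · exfalso
      have := Fintype.one_lt_card (α := F)
      rw [hF, h, pow_zero] at this
      exact lt_irrefl _ this
    · exact h
  have hinj : Function.Injective ρ := by
    rw [← MonoidHom.ker_eq_bot_iff, hker, eq_bot_iff]
    intro l hl
    rw [Subgroup.mem_subgroupOf] at hl
    have : (l : G) ∈ L ⊓ Subgroup.centralizer (V : Set G) := ⟨l.2, hl⟩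
    rw [hf, Subgroup.mem_bot] at this
    rw [Subgroup.mem_bot]
    exact Subtype.ext this
  have hP : IsPGroup p ↥((S : Subgroup ↥L).map ρ) := S.isPGroup'.map ρ
  obtain ⟨w, hw0, hwfix⟩ := exists_fixed_vec n hF hn _ hP
  obtain ⟨b₀, d₀, hbd⟩ := exists_sl_col w hw0
  obtain ⟨g₀, hg₀⟩ : ∃ g₀ : Matrix.SpecialLinearGroup (Fin 2) F, g₀ = mk2 (w 0) b₀ (w 1) d₀ hbd :=
    ⟨_, rfl⟩
  have hconj : ∀ M : Matrix.SpecialLinearGroup (Fin 2) F, act M w = w →
      ∃ a, g₀⁻¹ * M * g₀ = u a := by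
    intro M hM
    rw [hg₀]
    exact conj_fix w b₀ d₀ hbd M hM
  obtain ⟨Φ, hΦ⟩ : ∃ Φ : G → (Fin 2 → F), ∀ x (hx : x ∈ V),
      Φ x = act g₀⁻¹ (ψ (Additive.ofMul (⟨x, hx⟩ : V))) :=
    ⟨fun x => if hx : x ∈ V then act g₀⁻¹ (ψ (Additive.ofMul (⟨x, hx⟩ : V))) else 0,
      fun x hx => dif_pos hx⟩
  obtain ⟨R, hR⟩ : ∃ R : G → Matrix.SpecialLinearGroup (Fin 2) F, ∀ l (hl : l ∈ L),
      R l = g₀⁻¹ * ρ ⟨l, hl⟩ * g₀ :=
    ⟨fun l => if hl : l ∈ L then g₀⁻¹ * ρ ⟨l, hl⟩ * g₀ else 1, fun l hl => dif_pos hl⟩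
  have m1 : ∀ x ∈ V, ∀ y ∈ V, Φ (x * y) = Φ x + Φ y := by
    intro x hx y hy
    rw [hΦ x hx, hΦ y hy, hΦ (x * y) (V.mul_mem hx hy), ← act_add, ← map_add]
    rfl
  have m2 : ∀ x ∈ V, ∀ y ∈ V, Φ x = Φ y → x = y := by
    intro x hx y hy e
    rw [hΦ x hx, hΦ y hy] at e
    have e2 := congrArg (act g₀) e
    rw [← act_mul, ← act_mul, mul_inv_cancel, act_one, act_one] at e2
    have e3 := ψ.injective e2
    have e4 : (⟨x, hx⟩ : V) = ⟨y, hy⟩ := Additive.ofMul.injective e3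
    exact congrArg Subtype.val e4
  have m3 : ∀ v : Fin 2 → F, ∃ x ∈ V, Φ x = v := by
    intro v
    obtain ⟨z, hz⟩ : ∃ z : V, Additive.ofMul z = ψ.symm (act g₀ v) :=
      ⟨Additive.toMul (ψ.symm (act g₀ v)), rfl⟩
    refine ⟨z.1, z.2, ?_⟩
    rw [hΦ z.1 z.2]
    have : (⟨z.1, z.2⟩ : V) = z := rfl
    rw [this, hz, ψ.apply_symm_apply, ← act_mul, inv_mul_cancel, act_one]
  have m4 : ∀ l ∈ L, ∀ x ∈ V, l * x * l⁻¹ ∈ V ∧ Φ (l * x * l⁻¹) = act (R l) (Φ x) := by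
    intro l hl x hx
    obtain ⟨wv, hw1, hw2⟩ := hact ⟨l, hl⟩ ⟨x, hx⟩
    have hw1' : (wv : G) = l * x * l⁻¹ := hw1
    have hmem : l * x * l⁻¹ ∈ V := by rw [← hw1']; exact wv.2
    refine ⟨hmem, ?_⟩
    have hwv : (⟨l * x * l⁻¹, hmem⟩ : V) = wv := Subtype.ext hw1'.symm
    rw [hΦ _ hmem, hwv, hR l hl, hΦ x hx, ← act_mul, mul_inv_cancel_right, act_mul]
    exact congrArg (act g₀⁻¹) hw2
  have m5 : ∀ l ∈ L, ∀ m ∈ L, R (l * m) = R l * R m := by
    intro l hl m hm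
    rw [hR l hl, hR m hm, hR (l * m) (L.mul_mem hl hm)]
    have : (⟨l * m, L.mul_mem hl hm⟩ : L) = ⟨l, hl⟩ * ⟨m, hm⟩ := rfl
    rw [this, map_mul]
    group
  have m6 : ∀ l ∈ L, ∀ m ∈ L, R l = R m → l = m := by
    intro l hl m hm e
    rw [hR l hl, hR m hm] at e
    have e2 := mul_left_cancel (mul_right_cancel e)
    exact congrArg Subtype.val (hinj e2)
  have m7 : ∀ M : Matrix.SpecialLinearGroup (Fin 2) F, ∃ l ∈ L, R l = M := by
    intro M
    obtain ⟨l, hl⟩ := hsurj (g₀ * M * g₀⁻¹)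
    refine ⟨l.1, l.2, ?_⟩
    rw [hR l.1 l.2]
    have : (⟨l.1, l.2⟩ : L) = l := rfl
    rw [this, hl]
    group
  have hTS : ∀ l (hl : l ∈ L), l ∈ T ↔ (⟨l, hl⟩ : L) ∈ (S : Subgroup L) := by
    intro l hl
    rw [hT, Subgroup.mem_map]
    constructor
    · rintro ⟨s, hs, rfl⟩
      exact hs
    · intro h
      exact ⟨⟨l, hl⟩, h, rfl⟩
  have hfwd : ∀ l (hl : l ∈ L), (⟨l, hl⟩ : L) ∈ (S : Subgroup L) → ∃ a, R l = u a := by
    intro l hl hs
    rw [hR l hl]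
    exact hconj _ (hwfix _ (Subgroup.mem_map_of_mem ρ hs))
  obtain ⟨S', hS'⟩ : ∃ S' : Subgroup L, ∀ l : L, l ∈ S' ↔ ∃ a, g₀⁻¹ * ρ l * g₀ = u a := by
    refine ⟨{ carrier := {l | ∃ a, g₀⁻¹ * ρ l * g₀ = u a}
              one_mem' := ⟨0, by rw [map_one, mul_one, inv_mul_cancel, u_zero]⟩
              mul_mem' := ?_
              inv_mem' := ?_ }, fun l => Iff.rfl⟩
    · rintro x y ⟨a, ha⟩ ⟨b, hb⟩
      refine ⟨a + b, ?_⟩
      have : g₀⁻¹ * ρ (x * y) * g₀ = (g₀⁻¹ * ρ x * g₀) * (g₀⁻¹ * ρ y * g₀) := by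
        rw [map_mul]; group
      rw [this, ha, hb, u_mul]
    · rintro x ⟨a, ha⟩
      refine ⟨-a, ?_⟩
      have : g₀⁻¹ * ρ x⁻¹ * g₀ = (g₀⁻¹ * ρ x * g₀)⁻¹ := by
        rw [map_inv]; group
      rw [this, ha, u_inv]
  have hS'p : IsPGroup p ↥S' := by
    rintro ⟨l, hl⟩
    obtain ⟨a, ha⟩ := (hS' l).mp hl
    refine ⟨1, ?_⟩
    apply Subtype.ext
    apply hinj
    show ρ (l ^ p ^ 1) = ρ 1
    have h1 : ρ l = g₀ * u a * g₀⁻¹ := by rw [← ha]; group
    rw [pow_one, map_pow, map_one, h1, conj_pow, u_pow, CharP.cast_eq_zero F p, zero_mul, u_zero,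
      mul_one, mul_inv_cancel]
  have hSle : (S : Subgroup L) ≤ S' := by
    intro l hl
    obtain ⟨a, ha⟩ := hfwd l.1 l.2 hl
    rw [hR l.1 l.2] at ha
    exact (hS' l).mpr ⟨a, ha⟩
  have hSeq : S' = (S : Subgroup L) := S.is_maximal' hS'p hSle
  have m8 : ∀ l ∈ L, (l ∈ T ↔ ∃ a, R l = u a) := by
    intro l hl
    rw [hTS l hl]
    constructor
    · exact hfwd l hl
    · rintro ⟨a, ha⟩
      rw [← hSeq]
      rw [hR l hl] at ha
      exact (hS' _).mpr ⟨a, ha⟩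
  refine ⟨fun x => Φ x 0, fun x => Φ x 1, fun l => (R l).1 0 0, fun l => (R l).1 0 1,
    fun l => (R l).1 1 0, fun l => (R l).1 1 1, ⟨?_, ?_, ?_, ?_, ?_, ?_, ?_, ?_, ?_, ?_⟩, ?_, hn, ?_⟩
  · intro x hx y hy
    have := m1 x hx y hy
    exact ⟨congrFun this 0, congrFun this 1⟩
  · intro x hx y hy e0 e1
    apply m2 x hx y hy
    funext i
    fin_cases i
    · exact e0
    · exact e1
  · intro a b
    obtain ⟨x, hx, hxv⟩ := m3 ![a, b]
    refine ⟨x, hx, ?_, ?_⟩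
    · show Φ x 0 = a
      rw [hxv]; rfl
    · show Φ x 1 = b
      rw [hxv]; rfl
  · intro l hl x hx
    obtain ⟨hmem, e⟩ := m4 l hl x hx
    refine ⟨hmem, ?_, ?_⟩
    · show Φ (l * x * l⁻¹) 0 = (R l).1 0 0 * Φ x 0 + (R l).1 0 1 * Φ x 1
      rw [e]; exact act_apply0 _ _
    · show Φ (l * x * l⁻¹) 1 = (R l).1 1 0 * Φ x 0 + (R l).1 1 1 * Φ x 1
      rw [e]; exact act_apply1 _ _
  · intro l _
    exact det_entries (R l)
  · intro l hl m hm
    have := m5 l hl m hm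
    show (R (l * m)).1 0 0 = _ ∧ (R (l * m)).1 0 1 = _ ∧ (R (l * m)).1 1 0 = _ ∧
      (R (l * m)).1 1 1 = _
    rw [this]
    exact mul_entries (R l) (R m)
  · intro l hl m hm e00 e01 e10 e11
    exact m6 l hl m hm (sl_ext _ _ e00 e01 e10 e11)
  · intro a b c d h
    obtain ⟨l, hl, e⟩ := m7 (mk2 a b c d h)
    refine ⟨l, hl, ?_, ?_, ?_, ?_⟩
    · show (R l).1 0 0 = a
      rw [e]; rfl
    · show (R l).1 0 1 = b
      rw [e]; rfl
    · show (R l).1 1 0 = c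
      rw [e]; rfl
    · show (R l).1 1 1 = d
      rw [e]; rfl
  · intro l hl
    rw [m8 l hl]
    constructor
    · rintro ⟨a, ha⟩
      show (R l).1 0 0 = 1 ∧ (R l).1 1 0 = 0 ∧ (R l).1 1 1 = 1
      rw [ha]
      exact ⟨rfl, rfl, rfl⟩
    · rintro ⟨e00, e10, e11⟩
      exact ⟨(R l).1 0 1, sl_ext _ _ e00 rfl e10 e11⟩
  · rw [hT]
    exact Subgroup.map_subtype_le _
  · have h1 : Nat.card V = Nat.card (Fin 2 → F) := Nat.card_congr (Additive.ofMul.trans ψ.toEquiv)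
    rw [h1, Nat.card_fun, Nat.card_fin, Nat.card_eq_fintype_card]
  · rw [hT]
    exact S.isPGroup'.map L.subtype

end main

section derived

variable {G : Type*} [Group G] {F : Type*} [Field F] {V L T : Subgroup G} {X Y A B C D : G → F}

theorem IsCoord.add (hc : IsCoord V L T X Y A B C D) :
    ∀ x ∈ V, ∀ y ∈ V, X (x * y) = X x + X y ∧ Y (x * y) = Y x + Y y := by
  unfold IsCoord at hc; exact hc.1

theorem IsCoord.inj (hc : IsCoord V L T X Y A B C D) :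
    ∀ x ∈ V, ∀ y ∈ V, X x = X y → Y x = Y y → x = y := by
  unfold IsCoord at hc; exact hc.2.1

theorem IsCoord.surj (hc : IsCoord V L T X Y A B C D) :
    ∀ a b : F, ∃ x ∈ V, X x = a ∧ Y x = b := by
  unfold IsCoord at hc; exact hc.2.2.1

theorem IsCoord.act (hc : IsCoord V L T X Y A B C D) :
    ∀ l ∈ L, ∀ x ∈ V, l * x * l⁻¹ ∈ V ∧ X (l * x * l⁻¹) = A l * X x + B l * Y x ∧
      Y (l * x * l⁻¹) = C l * X x + D l * Y x := by
  unfold IsCoord at hc; exact hc.2.2.2.1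

theorem IsCoord.det (hc : IsCoord V L T X Y A B C D) :
    ∀ l ∈ L, A l * D l - B l * C l = 1 := by
  unfold IsCoord at hc; exact hc.2.2.2.2.1

theorem IsCoord.mul (hc : IsCoord V L T X Y A B C D) :
    ∀ l ∈ L, ∀ m ∈ L, A (l * m) = A l * A m + B l * C m ∧ B (l * m) = A l * B m + B l * D m ∧
      C (l * m) = C l * A m + D l * C m ∧ D (l * m) = C l * B m + D l * D m := by
  unfold IsCoord at hc; exact hc.2.2.2.2.2.1

theorem IsCoord.linj (hc : IsCoord V L T X Y A B C D) :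
    ∀ l ∈ L, ∀ m ∈ L, A l = A m → B l = B m → C l = C m → D l = D m → l = m := by
  unfold IsCoord at hc; exact hc.2.2.2.2.2.2.1

theorem IsCoord.lsurj (hc : IsCoord V L T X Y A B C D) :
    ∀ a b c d : F, a * d - b * c = 1 → ∃ l ∈ L, A l = a ∧ B l = b ∧ C l = c ∧ D l = d := by
  unfold IsCoord at hc; exact hc.2.2.2.2.2.2.2.1

theorem IsCoord.syl (hc : IsCoord V L T X Y A B C D) :
    ∀ l ∈ L, (l ∈ T ↔ A l = 1 ∧ C l = 0 ∧ D l = 1) := by
  unfold IsCoord at hc; exact hc.2.2.2.2.2.2.2.2.1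

theorem IsCoord.TL (hc : IsCoord V L T X Y A B C D) : T ≤ L := by
  unfold IsCoord at hc; exact hc.2.2.2.2.2.2.2.2.2

theorem coord_one (hc : IsCoord V L T X Y A B C D) : X 1 = 0 ∧ Y 1 = 0 := by
  have := hc.add 1 V.one_mem 1 V.one_mem
  rw [mul_one] at this
  obtain ⟨h1, h2⟩ := this
  exact ⟨by linear_combination -h1, by linear_combination -h2⟩

theorem coord_inv (hc : IsCoord V L T X Y A B C D) :
    ∀ x ∈ V, X x⁻¹ = - X x ∧ Y x⁻¹ = - Y x := by
  intro x hx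
  obtain ⟨h0X, h0Y⟩ := coord_one hc
  have := hc.add x hx x⁻¹ (V.inv_mem hx)
  rw [mul_inv_cancel, h0X, h0Y] at this
  obtain ⟨h1, h2⟩ := this
  exact ⟨by linear_combination -h1, by linear_combination -h2⟩

theorem coord_eq_one (hc : IsCoord V L T X Y A B C D) :
    ∀ x ∈ V, X x = 0 → Y x = 0 → x = 1 := by
  intro x hx h0 h1
  obtain ⟨h0X, h0Y⟩ := coord_one hc
  exact hc.inj x hx 1 V.one_mem (by rw [h0, h0X]) (by rw [h1, h0Y])

theorem coord_comm (hc : IsCoord V L T X Y A B C D) : ∀ x ∈ V, ∀ y ∈ V, x * y = y * x := by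
  intro x hx y hy
  apply hc.inj _ (V.mul_mem hx hy) _ (V.mul_mem hy hx)
  · rw [(hc.add x hx y hy).1, (hc.add y hy x hx).1, add_comm]
  · rw [(hc.add x hx y hy).2, (hc.add y hy x hx).2, add_comm]

theorem entries_T (hc : IsCoord V L T X Y A B C D) :
    ∀ t ∈ T, t ∈ L ∧ A t = 1 ∧ C t = 0 ∧ D t = 1 :=
  fun t ht => ⟨hc.TL ht, (hc.syl t (hc.TL ht)).mp ht⟩

theorem entries_one (hc : IsCoord V L T X Y A B C D) : A 1 = 1 ∧ B 1 = 0 ∧ C 1 = 0 ∧ D 1 = 1 := by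
  obtain ⟨-, hA, hC, hD⟩ := entries_T hc 1 T.one_mem
  have := (hc.mul 1 L.one_mem 1 L.one_mem).2.1
  rw [mul_one, hA, hD] at this
  exact ⟨hA, by linear_combination -this, hC, hD⟩

theorem entries_inv (hc : IsCoord V L T X Y A B C D) :
    ∀ g ∈ L, A g⁻¹ = D g ∧ B g⁻¹ = - B g ∧ C g⁻¹ = - C g ∧ D g⁻¹ = A g := by
  intro g hg
  obtain ⟨h1A, h1B, h1C, h1D⟩ := entries_one hc
  obtain ⟨e1, e2, e3, e4⟩ := hc.mul g hg g⁻¹ (L.inv_mem hg)
  rw [mul_inv_cancel] at e1 e2 e3 e4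
  rw [h1A] at e1
  rw [h1B] at e2
  rw [h1C] at e3
  rw [h1D] at e4
  have hd := hc.det g hg
  refine ⟨?_, ?_, ?_, ?_⟩
  · linear_combination (-(D g)) * e1 + B g * e3 - A g⁻¹ * hd
  · linear_combination (-(D g)) * e2 + B g * e4 - B g⁻¹ * hd
  · linear_combination C g * e1 - A g * e3 - C g⁻¹ * hd
  · linear_combination C g * e2 - A g * e4 - D g⁻¹ * hd

theorem comm_formula (hc : IsCoord V L T X Y A B C D) :
    ∀ v ∈ V, ∀ t ∈ T, v * t * v⁻¹ * t⁻¹ ∈ V ∧ X (v * t * v⁻¹ * t⁻¹) = - B t * Y v ∧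
      Y (v * t * v⁻¹ * t⁻¹) = 0 := by
  intro v hv t ht
  obtain ⟨htL, hA, hC, hD⟩ := entries_T hc t ht
  obtain ⟨hiX, hiY⟩ := coord_inv hc v hv
  obtain ⟨hmem, eX, eY⟩ := hc.act t htL v⁻¹ (V.inv_mem hv)
  have e : v * t * v⁻¹ * t⁻¹ = v * (t * v⁻¹ * t⁻¹) := by group
  rw [e]
  obtain ⟨aX, aY⟩ := hc.add v hv _ hmem
  refine ⟨V.mul_mem hv hmem, ?_, ?_⟩
  · rw [aX, eX, hA, hiX, hiY]; ring
  · rw [aY, eY, hC, hD, hiX, hiY]; ring

theorem exists_T (hc : IsCoord V L T X Y A B C D) (a : F) : ∃ t ∈ T, B t = a := by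
  obtain ⟨t, htL, hA, hB, hC, hD⟩ := hc.lsurj 1 a 0 1 (by ring)
  exact ⟨t, (hc.syl t htL).mpr ⟨hA, hC, hD⟩, hB⟩

theorem B_ne_zero (hc : IsCoord V L T X Y A B C D) (s : G) (hs : s ∈ T) (hs1 : s ≠ 1) :
    B s ≠ 0 := by
  intro hB
  obtain ⟨hsL, hA, hC, hD⟩ := entries_T hc s hs
  obtain ⟨h1A, h1B, h1C, h1D⟩ := entries_one hc
  exact hs1 (hc.linj s hsL 1 L.one_mem (by rw [hA, h1A]) (by rw [hB, h1B]) (by rw [hC, h1C])
    (by rw [hD, h1D]))

theorem mem_cent_iff (hc : IsCoord V L T X Y A B C D) (x : G) :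
    x ∈ V ⊓ Subgroup.centralizer (T : Set G) ↔ x ∈ V ∧ Y x = 0 := by
  constructor
  · rintro ⟨hxV, hxC⟩
    refine ⟨hxV, ?_⟩
    obtain ⟨t, htL, hA, hB, hC, hD⟩ := hc.lsurj 1 1 0 1 (by ring)
    have ht : t ∈ T := (hc.syl t htL).mpr ⟨hA, hC, hD⟩
    have hcomm := (Subgroup.mem_centralizer_iff.mp hxC) t ht
    have e : t * x * t⁻¹ = x := by rw [hcomm]; group
    obtain ⟨_, eX, _⟩ := hc.act t htL x hxV
    rw [e, hA, hB] at eX
    linear_combination -eX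
  · rintro ⟨hxV, hY⟩
    refine ⟨hxV, ?_⟩
    show x ∈ Subgroup.centralizer (T : Set G)
    rw [Subgroup.mem_centralizer_iff]
    intro t ht
    obtain ⟨htL, hA, hC, hD⟩ := entries_T hc t ht
    obtain ⟨hmem, eX, eY⟩ := hc.act t htL x hxV
    have e : t * x * t⁻¹ = x :=
      hc.inj _ hmem x hxV (by rw [eX, hA, hY]; ring) (by rw [eY, hC, hD, hY]; ring)
    calc t * x = t * x * t⁻¹ * t := by group
      _ = x * t := by rw [e]

theorem mem_cent_single_iff (hc : IsCoord V L T X Y A B C D) (s : G) (hs : s ∈ T) (hs1 : s ≠ 1)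
    (x : G) : x ∈ V ⊓ Subgroup.centralizer ({s} : Set G) ↔ x ∈ V ∧ Y x = 0 := by
  have hB : B s ≠ 0 := B_ne_zero hc s hs hs1
  constructor
  · rintro ⟨hxV, hxC⟩
    refine ⟨hxV, ?_⟩
    obtain ⟨htL, hA, hC, hD⟩ := entries_T hc s hs
    have hcomm := (Subgroup.mem_centralizer_iff.mp hxC) s (Set.mem_singleton s)
    have e : s * x * s⁻¹ = x := by rw [hcomm]; group
    obtain ⟨_, eX, _⟩ := hc.act s htL x hxV
    rw [e, hA] at eX
    have : B s * Y x = 0 := by linear_combination -eX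
    exact (mul_eq_zero.mp this).resolve_left hB
  · rintro ⟨hxV, hY⟩
    have this : x ∈ Subgroup.centralizer (T : Set G) := ((mem_cent_iff hc x).mpr ⟨hxV, hY⟩).2
    refine ⟨hxV, ?_⟩
    show x ∈ Subgroup.centralizer ({s} : Set G)
    rw [Subgroup.mem_centralizer_iff] at this ⊢
    intro h hh
    rw [Set.mem_singleton_iff] at hh
    rw [hh]
    exact this s hs

theorem card_cent [Fintype F] (hc : IsCoord V L T X Y A B C D) :
    Nat.card ↥(V ⊓ Subgroup.centralizer (T : Set G)) = Fintype.card F := by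
  rw [← Nat.card_eq_fintype_card]
  apply Nat.card_congr
  refine Equiv.ofBijective (fun x => X x.1) ⟨?_, ?_⟩
  · intro x y e
    have hx := (mem_cent_iff hc x.1).mp x.2
    have hy := (mem_cent_iff hc y.1).mp y.2
    exact Subtype.ext (hc.inj _ hx.1 _ hy.1 e (by rw [hx.2, hy.2]))
  · intro a
    obtain ⟨x, hxV, hX, hY⟩ := hc.surj a 0
    exact ⟨⟨x, (mem_cent_iff hc x).mpr ⟨hxV, hY⟩⟩, hX⟩

theorem mem_normalizer_of_C (hc : IsCoord V L T X Y A B C D) :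
    ∀ g ∈ L, C g = 0 → g ∈ Subgroup.normalizer (T : Set G) := by
  have key : ∀ g ∈ L, C g = 0 → ∀ h ∈ T, g * h * g⁻¹ ∈ T := by
    intro g hg hC h hh
    obtain ⟨hhL, hA, hCh, hD⟩ := entries_T hc h hh
    obtain ⟨iA, iB, iC, iD⟩ := entries_inv hc g hg
    have hgh : g * h ∈ L := L.mul_mem hg hhL
    have hgi : g⁻¹ ∈ L := L.inv_mem hg
    obtain ⟨m1, m2, m3, m4⟩ := hc.mul g hg h hhL
    obtain ⟨n1, n2, n3, n4⟩ := hc.mul (g * h) hgh g⁻¹ hgi
    have hd := hc.det g hg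
    rw [hC] at hd
    rw [hc.syl _ (L.mul_mem hgh hgi)]
    refine ⟨?_, ?_, ?_⟩
    · rw [n1, m1, m2, iA, iC, hA, hCh, hD, hC]
      linear_combination hd
    · rw [n3, m3, m4, iA, iC, hA, hCh, hD, hC]
      ring
    · rw [n4, m3, m4, iB, iD, hA, hCh, hD, hC]
      linear_combination hd
  intro g hg hC
  rw [Subgroup.mem_normalizer_iff]
  intro h
  constructor
  · exact key g hg hC h
  · intro hh
    have iC := (entries_inv hc g hg).2.2.1
    have := key g⁻¹ (L.inv_mem hg) (by rw [iC, hC, neg_zero]) _ hh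
    have e : g⁻¹ * (g * h * g⁻¹) * g⁻¹⁻¹ = h := by group
    rw [e] at this
    exact this

theorem mem_cent_conj_iff (hc : IsCoord V L T X Y A B C D) (g : G) (hg : g ∈ L) (x : G)
    (hx : x ∈ V) :
    x ∈ Subgroup.centralizer ((T.map (MulAut.conj g).toMonoidHom : Subgroup G) : Set G) ↔
      A g * Y x = C g * X x := by
  obtain ⟨iA, iB, iC, iD⟩ := entries_inv hc g hg
  have hgi : g⁻¹ ∈ L := L.inv_mem hg
  obtain ⟨hmem, eX, eY⟩ := hc.act g⁻¹ hgi x hx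
  rw [inv_inv] at hmem eX eY
  have h1 : x ∈ Subgroup.centralizer ((T.map (MulAut.conj g).toMonoidHom : Subgroup G) : Set G) ↔
      g⁻¹ * x * g ∈ V ⊓ Subgroup.centralizer (T : Set G) := by
    rw [Subgroup.mem_centralizer_iff]
    constructor
    · intro h
      refine ⟨hmem, ?_⟩
      show g⁻¹ * x * g ∈ Subgroup.centralizer (T : Set G)
      rw [Subgroup.mem_centralizer_iff]
      intro t ht
      have := h (g * t * g⁻¹) (Subgroup.mem_map.mpr ⟨t, ht, rfl⟩)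
      calc t * (g⁻¹ * x * g) = g⁻¹ * ((g * t * g⁻¹) * x) * g := by group
        _ = g⁻¹ * (x * (g * t * g⁻¹)) * g := by rw [this]
        _ = g⁻¹ * x * g * t := by group
    · rintro ⟨-, h'⟩ y hy
      have h : g⁻¹ * x * g ∈ Subgroup.centralizer (T : Set G) := h'
      rw [Subgroup.mem_centralizer_iff] at h
      obtain ⟨t, ht, rfl⟩ := Subgroup.mem_map.mp hy
      have := h t ht
      show g * t * g⁻¹ * x = x * (g * t * g⁻¹)
      calc g * t * g⁻¹ * x = g * (t * (g⁻¹ * x * g)) * g⁻¹ := by group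
        _ = g * ((g⁻¹ * x * g) * t) * g⁻¹ := by rw [this]
        _ = x * (g * t * g⁻¹) := by group
  rw [h1, mem_cent_iff hc]
  constructor
  · rintro ⟨-, hY⟩
    rw [eY, iC, iD] at hY
    linear_combination hY
  · intro h
    refine ⟨hmem, ?_⟩
    rw [eY, iC, iD]
    linear_combination h

end derived

end Cfsg.Agent.Helper19.NatSL2
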