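import Mathlib
import Cfsg.Agent.Helper2.SpDarboux

/-!
Piece [P1] for S2469 (request 978 of helper10): the fixed space of an isometry of order prime
to the characteristic, inside a nondegenerate invariant subspace of an alternating space, is
nondegenerate, hence even-dimensional.
-/

namespace Cfsg.Agent.Helper19.PSpRS

theorem even_fix {F V : Type*} [Field F] [AddCommGroup V] [Module F V] [FiniteDimensional F V]
    (f : LinearMap.BilinForm F V) (halt : ∀ v, f v v = 0) (W : Submodule F V)
    (hW : ∀ w ∈ W, (∀ w' ∈ W, f w w' = 0) → w = 0) (X : Module.End F V)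
    (hX : ∀ u v, f (X u) (X v) = f u v) (hXW : ∀ w ∈ W, X w ∈ W) (s : ℕ) (hs : (s : F) ≠ 0)
    (hXs : X ^ s = 1) :
    (∀ w ∈ W ⊓ LinearMap.ker (X - 1), (∀ w' ∈ W ⊓ LinearMap.ker (X - 1), f w w' = 0) → w = 0) ∧
      Even (Module.finrank F ↥(W ⊓ LinearMap.ker (X - 1))) := by
  classical
  have hpowW : ∀ i : ℕ, ∀ u ∈ W, (X ^ i) u ∈ W := by
    intro i
    induction i with
    | zero => intro u hu; simpa using hu
    | succ n ih =>
      intro u hu
      rw [pow_succ, Module.End.mul_apply]
      exact ih _ (hXW u hu)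
  have hpowf : ∀ i : ℕ, ∀ u v, f ((X ^ i) u) ((X ^ i) v) = f u v := by
    intro i
    induction i with
    | zero => intro u v; simp
    | succ n ih =>
      intro u v
      rw [pow_succ, Module.End.mul_apply, Module.End.mul_apply, ih, hX]
  have part1 : ∀ w ∈ W ⊓ LinearMap.ker (X - 1),
      (∀ w' ∈ W ⊓ LinearMap.ker (X - 1), f w w' = 0) → w = 0 := by
    intro w hw horth
    obtain ⟨hwW, hwk⟩ := Submodule.mem_inf.mp hw
    have hXw : X w = w := by
      rw [LinearMap.mem_ker, LinearMap.sub_apply, Module.End.one_apply, sub_eq_zero] at hwk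
      exact hwk
    have hpoww : ∀ i : ℕ, (X ^ i) w = w := by
      intro i
      induction i with
      | zero => simp
      | succ n ih => rw [pow_succ, Module.End.mul_apply, hXw, ih]
    apply hW w hwW
    intro u hu
    have key : ∑ i ∈ Finset.range s, (X ^ (i + 1)) u = ∑ i ∈ Finset.range s, (X ^ i) u := by
      have h1 := Finset.sum_range_succ (fun i => (X ^ i) u) s
      have h2 := Finset.sum_range_succ' (fun i => (X ^ i) u) s
      rw [h1] at h2
      simp only [hXs, pow_zero] at h2
      exact (add_right_cancel h2).symm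
    have hmem : (∑ i ∈ Finset.range s, (X ^ i) u) ∈ W ⊓ LinearMap.ker (X - 1) := by
      refine Submodule.mem_inf.mpr ⟨Submodule.sum_mem _ (fun i _ => hpowW i u hu), ?_⟩
      rw [LinearMap.mem_ker, LinearMap.sub_apply, Module.End.one_apply, sub_eq_zero, map_sum]
      rw [← key]
      refine Finset.sum_congr rfl (fun i _ => ?_)
      rw [pow_succ', Module.End.mul_apply]
    have h3 : f w (∑ i ∈ Finset.range s, (X ^ i) u) = (s : F) * f w u := by
      rw [map_sum]
      have h4 : ∀ i ∈ Finset.range s, f w ((X ^ i) u) = f w u := by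
        intro i _
        have := hpowf i w u
        rwa [hpoww i] at this
      rw [Finset.sum_congr rfl h4, Finset.sum_const, Finset.card_range, nsmul_eq_mul]
    have h5 := horth _ hmem
    rw [h3] at h5
    exact (mul_eq_zero.mp h5).resolve_left hs
  refine ⟨part1, ?_⟩
  have hnd : ∀ a ∈ W ⊓ LinearMap.ker (X - 1), a ≠ 0 →
      ∃ w ∈ W ⊓ LinearMap.ker (X - 1), f a w ≠ 0 := by
    intro a ha ha0
    by_contra hcon
    push_neg at hcon
    exact ha0 (part1 a ha hcon)
  obtain ⟨j, p, q, hH, -, -, hsp⟩ :=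
    Cfsg.Agent.Helper2.SpDecomp.darboux f halt (W ⊓ LinearMap.ker (X - 1)) hnd
  have hli := Cfsg.Agent.Helper2.SpDecomp.hyp_li f p q hH
  rw [← hsp, finrank_span_eq_card hli, Fintype.card_sum, Fintype.card_fin]
  exact ⟨j, rfl⟩

end Cfsg.Agent.Helper19.PSpRS
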