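import Mathlib
import Cfsg.Agent.Helper14.Psu3a

/-!
Piece [P2] for S2366 (request 1096 of helper14): a unitary `3 × 3` matrix over `F_{q^2}` cannot
have characteristic polynomial `(X - lam) * ψ` with `ψ` an irreducible quadratic.

`case_quad_of_root_closed` takes the root-closure property (P0) as a hypothesis; `case_quad`
is the requested statement (P0 supplied by `Cfsg.Agent.Helper14.Psu3a.root_closed`).
-/

set_option autoImplicit false

namespace Cfsg.Agent.Helper19.Psu3x

open Polynomial

universe u

/-- An element of an extension fixed by the `card F`-power map comes from `F`. -/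
theorem mem_of_pow_card {F : Type*} [Field F] [Fintype F] {K : Type*} [Field K] [Algebra F K]
    (z : K) (hz : z ^ Fintype.card F = z) : ∃ c : F, z = algebraMap F K c := by
  classical
  by_contra hcon
  have hQ1 : 1 < Fintype.card F := Fintype.one_lt_card
  have hPne : (X ^ Fintype.card F - X : K[X]) ≠ 0 := FiniteField.X_pow_card_sub_X_ne_zero K hQ1
  have hdeg : (X ^ Fintype.card F - X : K[X]).natDegree = Fintype.card F :=
    FiniteField.X_pow_card_sub_X_natDegree_eq K hQ1
  have hroot : ∀ c : F, algebraMap F K c ∈ (X ^ Fintype.card F - X : K[X]).roots := by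
    intro c
    rw [mem_roots hPne, IsRoot.def]
    simp only [eval_sub, eval_pow, eval_X]
    rw [← map_pow, FiniteField.pow_card, sub_self]
  have hzroot : z ∈ (X ^ Fintype.card F - X : K[X]).roots := by
    rw [mem_roots hPne, IsRoot.def]
    simp only [eval_sub, eval_pow, eval_X]
    rw [hz, sub_self]
  have hsub : insert z (Finset.univ.image (algebraMap F K)) ⊆
      (X ^ Fintype.card F - X : K[X]).roots.toFinset := by
    intro x hx
    rw [Finset.mem_insert] at hx
    rw [Multiset.mem_toFinset]
    rcases hx with rfl | hx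
    · exact hzroot
    · rw [Finset.mem_image] at hx
      obtain ⟨c, -, rfl⟩ := hx
      exact hroot c
  have hcard : (insert z (Finset.univ.image (algebraMap F K))).card = Fintype.card F + 1 := by
    rw [Finset.card_insert_of_notMem, Finset.card_image_of_injective _ (algebraMap F K).injective,
      Finset.card_univ]
    intro hmem
    rw [Finset.mem_image] at hmem
    obtain ⟨c, -, hc⟩ := hmem
    exact hcon ⟨c, hc.symm⟩
  have h1 := Finset.card_le_card hsub
  have h2 : (X ^ Fintype.card F - X : K[X]).roots.toFinset.card ≤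
      (X ^ Fintype.card F - X : K[X]).roots.card := Multiset.toFinset_card_le _
  have h3 := Polynomial.card_roots' (X ^ Fintype.card F - X : K[X])
  omega

theorem aeval_quad {F K : Type*} [Field F] [Field K] [Algebra F K] (t δ : F) (s : K) :
    aeval s (X ^ 2 - C t * X + C δ : F[X]) = s ^ 2 - algebraMap F K t * s + algebraMap F K δ := by
  simp [aeval_X, aeval_C]

/-- Core: in an extension `K` containing a root `r` of the quadratic factor, the root set of
`χ` cannot be closed under `s ↦ (s ^ q)⁻¹`. -/
theorem core_K {F : Type*} [Field F] [Fintype F] (p : ℕ) [Fact p.Prime] [CharP F p] (q : ℕ)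
    (hF : Fintype.card F = q ^ 2) (χ : F[X]) (lam t δ : F)
    (hχ : χ = (X - C lam) * (X ^ 2 - C t * X + C δ))
    (hnoroot : ∀ c : F, c ^ 2 - t * c + δ ≠ 0)
    {K : Type*} [Field K] [Algebra F K]
    (hP0 : ∀ s : K, aeval s χ = 0 → aeval ((s ^ q)⁻¹) χ = 0)
    (r : K) (hr : r ^ 2 - algebraMap F K t * r + algebraMap F K δ = 0) : False := by
  classical
  have hainj : Function.Injective (algebraMap F K) := (algebraMap F K).injective
  have hQ : Fintype.card F = q * q := by rw [hF]; ring
  have hrF : ∀ c : F, r ≠ algebraMap F K c := by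
    intro c hc
    apply hnoroot c
    apply hainj
    rw [map_add, map_sub, map_pow, map_mul, map_zero, ← hc]
    exact hr
  have hr0 : r ≠ 0 := fun h => hrF 0 (by rw [h, map_zero])
  have hr'root : (algebraMap F K t - r) ^ 2 - algebraMap F K t * (algebraMap F K t - r)
      + algebraMap F K δ = 0 := by linear_combination hr
  have hr'F : ∀ c : F, algebraMap F K t - r ≠ algebraMap F K c := by
    intro c hc
    apply hrF (t - c)
    rw [map_sub, ← hc]; ring
  have hr'0 : algebraMap F K t - r ≠ 0 := fun h => hr'F 0 (by rw [h, map_zero])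
  have hev : ∀ s : K, aeval s χ = (s - algebraMap F K lam) *
      (s ^ 2 - algebraMap F K t * s + algebraMap F K δ) := by
    intro s
    rw [hχ, map_mul, aeval_quad]
    simp [aeval_X, aeval_C]
  have hroots : ∀ s : K, aeval s χ = 0 ↔
      (s = algebraMap F K lam ∨ s = r ∨ s = algebraMap F K t - r) := by
    intro s
    rw [hev]
    constructor
    · intro h
      rcases mul_eq_zero.mp h with h1 | h1
      · left; exact sub_eq_zero.mp h1
      · right
        have h2 : (s - r) * (s - (algebraMap F K t - r)) = 0 := by linear_combination h1 - hr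
        rcases mul_eq_zero.mp h2 with h3 | h3
        · left; exact sub_eq_zero.mp h3
        · right; exact sub_eq_zero.mp h3
    · rintro (rfl | rfl | rfl)
      · simp
      · rw [hr, mul_zero]
      · rw [hr'root, mul_zero]
  have hinjQ : ∀ x y : K, x ^ (q * q) = y ^ (q * q) → x = y := by
    obtain ⟨n, hp, hn⟩ := FiniteField.card F p
    haveI : CharP K p := charP_of_injective_algebraMap hainj p
    intro x y hxy
    rw [← hQ, hn] at hxy
    have h1 : (x - y) ^ (p ^ (n : ℕ)) = 0 := by rw [sub_pow_char_pow, hxy, sub_self]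
    exact sub_eq_zero.mp (pow_eq_zero_iff (pow_ne_zero _ hp.ne_zero) |>.mp h1)
  have hinjq : ∀ x y : K, x ^ q = y ^ q → x = y := by
    intro x y hxy
    apply hinjQ
    rw [pow_mul, pow_mul, hxy]
  have hfix : ∀ z : K, z ^ (q * q) = z → ∃ c : F, z = algebraMap F K c := by
    intro z hz
    exact mem_of_pow_card z (by rw [hQ]; exact hz)
  have hτlam : ((algebraMap F K lam) ^ q)⁻¹ = algebraMap F K lam := by
    have h := (hroots _).mp (hP0 (algebraMap F K lam) ((hroots _).mpr (Or.inl rfl)))
    have him : ((algebraMap F K lam) ^ q)⁻¹ = algebraMap F K ((lam ^ q)⁻¹) := by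
      rw [map_inv₀, map_pow]
    rcases h with h | h | h
    · exact h
    · exact absurd (h.symm.trans him) (hrF _)
    · exact absurd (h.symm.trans him) (hr'F _)
  have hτne : ∀ s : K, (s ^ q)⁻¹ = algebraMap F K lam → s = algebraMap F K lam := by
    intro s hs
    apply hinjq
    exact inv_injective (hs.trans hτlam.symm)
  have hfixcase : ∀ s : K, s ≠ 0 → (s ^ q)⁻¹ = s → ∃ c : F, s = algebraMap F K c := by
    intro s hs0 hs
    have h0 : s ^ q ≠ 0 := pow_ne_zero _ hs0
    have h1 : s ^ q * s = 1 := by
      have h := mul_inv_cancel₀ h0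
      rwa [hs] at h
    have h2 : s ^ q = s⁻¹ := eq_inv_of_mul_eq_one_left h1
    apply hfix
    calc s ^ (q * q) = (s ^ q) ^ q := pow_mul s q q
      _ = (s⁻¹) ^ q := by rw [h2]
      _ = (s ^ q)⁻¹ := inv_pow s q
      _ = s := hs
  have h1 := (hroots _).mp (hP0 r ((hroots r).mpr (Or.inr (Or.inl rfl))))
  have h2 := (hroots _).mp (hP0 (algebraMap F K t - r)
    ((hroots (algebraMap F K t - r)).mpr (Or.inr (Or.inr rfl))))
  rcases h1 with h1 | h1 | h1
  · exact hrF _ (hτne r h1)
  · obtain ⟨c, hc⟩ := hfixcase r hr0 h1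
    exact hrF c hc
  · rcases h2 with h2 | h2 | h2
    · exact hr'F _ (hτne _ h2)
    · have h3 : r ^ (q * q) = r := by
        have h4 : r ^ q = (algebraMap F K t - r)⁻¹ := by rw [← h1, inv_inv]
        calc r ^ (q * q) = (r ^ q) ^ q := pow_mul r q q
          _ = ((algebraMap F K t - r)⁻¹) ^ q := by rw [h4]
          _ = ((algebraMap F K t - r) ^ q)⁻¹ := inv_pow _ _
          _ = r := h2
      obtain ⟨c, hc⟩ := hfix r h3
      exact hrF c hc
    · obtain ⟨c, hc⟩ := hfixcase _ hr'0 h2
      exact hr'F c hc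

/-- `case_quad` with the root-closure property (P0 of request 1096) as a hypothesis. -/
theorem case_quad_of_root_closed {F : Type u} [Field F] [Fintype F] (p : ℕ) [Fact p.Prime]
    [CharP F p] (q : ℕ) (hF : Fintype.card F = q ^ 2) (M : Matrix (Fin 3) (Fin 3) F)
    (hP0 : ∀ (K : Type u) [Field K] [Algebra F K] (s : K),
      aeval s M.charpoly = 0 → aeval ((s ^ q)⁻¹) M.charpoly = 0)
    (lam : F) (ψ : Polynomial F) (hψm : ψ.Monic) (hψd : ψ.natDegree = 2) (hψ : Irreducible ψ)
    (hchar : M.charpoly = (Polynomial.X - Polynomial.C lam) * ψ) : False := by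
  classical
  haveI : Fact (Irreducible ψ) := ⟨hψ⟩
  have hψeq : ψ = X ^ 2 - C (- ψ.coeff 1) * X + C (ψ.coeff 0) := by
    ext n
    have h2 : ψ.coeff 2 = 1 := by
      have := hψm.coeff_natDegree
      rwa [hψd] at this
    rcases Nat.lt_or_ge n 3 with hn | hn
    · interval_cases n
      · simp [coeff_X, coeff_C]
      · simp [coeff_X, coeff_C, coeff_one]
      · simp [h2, coeff_X, coeff_C, coeff_one]
    · have h1 : ψ.coeff n = 0 := coeff_eq_zero_of_natDegree_lt (by omega)
      rw [h1]
      have hn2 : n ≠ 2 := by omega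
      have hn1 : n ≠ 1 := by omega
      have hn0 : n ≠ 0 := by omega
      simp [coeff_X_pow, coeff_C, coeff_X, hn2, hn1, hn0, Ne.symm hn1, Ne.symm hn0, Ne.symm hn2]
  have hnoroot : ∀ c : F, c ^ 2 - (- ψ.coeff 1) * c + ψ.coeff 0 ≠ 0 := by
    intro z hz
    have hroot : ψ.IsRoot z := by
      rw [hψeq]
      simp only [IsRoot.def, eval_add, eval_sub, eval_pow, eval_X, eval_mul, eval_C]
      exact hz
    have hdeg1 : ψ.degree = 1 := Polynomial.degree_eq_one_of_irreducible_of_root hψ hroot
    have : ψ.natDegree = 1 := natDegree_eq_of_degree_eq_some hdeg1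
    omega
  have hroot : (AdjoinRoot.root ψ) ^ 2
      - algebraMap F (AdjoinRoot ψ) (- ψ.coeff 1) * AdjoinRoot.root ψ
      + algebraMap F (AdjoinRoot ψ) (ψ.coeff 0) = 0 := by
    have h : aeval (AdjoinRoot.root ψ) ψ = 0 := by rw [AdjoinRoot.aeval_eq, AdjoinRoot.mk_self]
    have h2 := aeval_quad (- ψ.coeff 1) (ψ.coeff 0) (AdjoinRoot.root ψ)
    rw [← hψeq] at h2
    rw [← h2]
    exact h
  have hχ : M.charpoly = (X - C lam) * (X ^ 2 - C (- ψ.coeff 1) * X + C (ψ.coeff 0)) := by
    rw [hchar]
    exact congrArg (fun z => (X - C lam) * z) hψeq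
  exact core_K p q hF M.charpoly lam (- ψ.coeff 1) (ψ.coeff 0) hχ hnoroot
    (fun s hs => hP0 (AdjoinRoot ψ) s hs) (AdjoinRoot.root ψ) hroot

/-- [P2] of request 1096: charpoly `(X - lam) * ψ` with `ψ` an irreducible quadratic is
impossible for a unitary matrix. -/
theorem case_quad {F : Type*} [Field F] [Fintype F] (p : ℕ) [Fact p.Prime] [CharP F p] (q : ℕ)
    (hF : Fintype.card F = q ^ 2) (M : Matrix (Fin 3) (Fin 3) F) (hdet : M.det = 1)
    (hU : M.transpose * M.map (fun x => x ^ q) = 1) (lam : F) (ψ : Polynomial F) (hψm : ψ.Monic)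
    (hψd : ψ.natDegree = 2) (hψ : Irreducible ψ)
    (hchar : M.charpoly = (Polynomial.X - Polynomial.C lam) * ψ) : False :=
  case_quad_of_root_closed p q hF M
    (fun K _ _ s hs => Cfsg.Agent.Helper14.Psu3a.root_closed p q hF M hU s hs)
    lam ψ hψm hψd hψ hchar

end Cfsg.Agent.Helper19.Psu3x
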