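import Mathlib
import Cfsg.Prelude.Def_CaseTheorems
import Cfsg.Agent.Helper19.Comm

/-!
Helper lemmas (helper19): perfect central extensions of quasisimple groups are quasisimple.
-/

set_option autoImplicit false

namespace Cfsg.Agent.Helper19

open scoped commutatorElement

/-- In a perfect group, an element all of whose commutators are central is central. -/
theorem mem_center_of_forall_commutator_mem_center {D : Type*} [Group D] [hD : Group.IsPerfect D]
    (d : D) (hd : ∀ x : D, d * x * d⁻¹ * x⁻¹ ∈ Subgroup.center D) : d ∈ Subgroup.center D := by
  have hker : commutator D ≤ (commHomCentral d hd).ker := by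
    rw [commutator_def, Subgroup.commutator_le]
    intro a _ b _
    rw [MonoidHom.mem_ker, map_commutatorElement, commutatorElement_def]
    have ha : commHomCentral d hd a ∈ Subgroup.center D := hd a
    have := Subgroup.mem_center_iff.mp ha (commHomCentral d hd b)
    rw [← this]; group
  rw [Subgroup.mem_center_iff]
  intro x
  have hx : x ∈ (commHomCentral d hd).ker := hker Group.IsPerfect.mem_commutator
  exact ((mem_ker_commHomCentral d hd x).mp hx).symm

/-- A perfect central extension of a quasisimple group is quasisimple. -/
theorem isQuasisimple_of_central_ext {D Q : Type*} [Group D] [Group Q] (g : D →* Q)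
    (hg : Function.Surjective g) (hker : g.ker ≤ Subgroup.center D) (hD : Group.IsPerfect D)
    (hQ : Cfsg.IsQuasisimple Q) : Cfsg.IsQuasisimple D := by
  refine ⟨hD, ?_⟩
  have hK : (Subgroup.center Q).comap g = Subgroup.center D := by
    apply le_antisymm
    · intro d hd
      rw [Subgroup.mem_comap] at hd
      apply mem_center_of_forall_commutator_mem_center
      intro x
      apply hker
      rw [MonoidHom.mem_ker, map_mul, map_mul, map_mul, map_inv, map_inv]
      have := Subgroup.mem_center_iff.mp hd (g x)
      rw [← this]; group
    · intro z hz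
      rw [Subgroup.mem_comap, Subgroup.mem_center_iff]
      intro q
      obtain ⟨x, rfl⟩ := hg q
      rw [← map_mul, ← map_mul, Subgroup.mem_center_iff.mp hz x]
  let f : D →* Q ⧸ Subgroup.center Q := (QuotientGroup.mk' (Subgroup.center Q)).comp g
  have hf : Function.Surjective f := (QuotientGroup.mk'_surjective _).comp hg
  have hfk : f.ker = Subgroup.center D := by
    rw [← hK]
    ext d
    rw [MonoidHom.mem_ker, Subgroup.mem_comap]
    show (QuotientGroup.mk' (Subgroup.center Q)) (g d) = 1 ↔ _
    exact QuotientGroup.eq_one_iff (g d)
  have e1 : D ⧸ f.ker ≃* Q ⧸ Subgroup.center Q := QuotientGroup.quotientKerEquivOfSurjective f hf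
  have e2 : D ⧸ f.ker ≃* D ⧸ Subgroup.center D := QuotientGroup.quotientMulEquivOfEq hfk
  exact (e2.symm.trans e1).isSimpleGroup_congr.mpr hQ.2

end Cfsg.Agent.Helper19
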