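import Mathlib
import Cfsg.Prelude.Def_GeometricClasses

/-!
Piece [D2] for S5968 (request 1106 of helper27): embedding a block `A` without eigenvectors as
`A ⊕ 1` in `SL_n`; the eigenvalue `1` then has an odd-dimensional, semisimple eigenspace and no
other eigenvalue at all.
-/

set_option autoImplicit false
open scoped MatrixGroups

namespace Cfsg.Agent.Helper19.S5968D2

open Matrix

variable {F : Type*} [Field F]

/-- The block matrix `A ⊕ 1` on `Fin (e + k)`. -/
noncomputable def blk {e k : ℕ} (A : Matrix (Fin e) (Fin e) F) :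
    Matrix (Fin (e + k)) (Fin (e + k)) F :=
  Matrix.reindex finSumFinEquiv finSumFinEquiv
    (Matrix.fromBlocks A 0 0 (1 : Matrix (Fin k) (Fin k) F))

theorem blk_ll {e k : ℕ} (A : Matrix (Fin e) (Fin e) F) (i j : Fin e) :
    blk (k := k) A (Fin.castAdd k i) (Fin.castAdd k j) = A i j := by
  simp [blk, Matrix.reindex_apply, Matrix.submatrix_apply]

theorem blk_lr {e k : ℕ} (A : Matrix (Fin e) (Fin e) F) (i : Fin e) (j : Fin k) :
    blk (k := k) A (Fin.castAdd k i) (Fin.natAdd e j) = 0 := by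
  simp [blk, Matrix.reindex_apply, Matrix.submatrix_apply]

theorem blk_rl {e k : ℕ} (A : Matrix (Fin e) (Fin e) F) (i : Fin k) (j : Fin e) :
    blk (k := k) A (Fin.natAdd e i) (Fin.castAdd k j) = 0 := by
  simp [blk, Matrix.reindex_apply, Matrix.submatrix_apply]

theorem blk_rr {e k : ℕ} (A : Matrix (Fin e) (Fin e) F) (i j : Fin k) :
    blk (k := k) A (Fin.natAdd e i) (Fin.natAdd e j) = (1 : Matrix (Fin k) (Fin k) F) i j := by
  simp [blk, Matrix.reindex_apply, Matrix.submatrix_apply]

theorem blk_mulVec_l {e k : ℕ} (A : Matrix (Fin e) (Fin e) F) (v : Fin (e + k) → F) (i : Fin e) :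
    (blk (k := k) A *ᵥ v) (Fin.castAdd k i) = (A *ᵥ (fun j => v (Fin.castAdd k j))) i := by
  simp only [Matrix.mulVec, dotProduct, Fin.sum_univ_add, blk_ll, blk_lr, zero_mul,
    Finset.sum_const_zero, add_zero]

theorem blk_mulVec_r {e k : ℕ} (A : Matrix (Fin e) (Fin e) F) (v : Fin (e + k) → F) (i : Fin k) :
    (blk (k := k) A *ᵥ v) (Fin.natAdd e i) = v (Fin.natAdd e i) := by
  simp only [Matrix.mulVec, dotProduct, Fin.sum_univ_add, blk_rl, blk_rr, zero_mul,
    Finset.sum_const_zero, zero_add, Matrix.one_apply]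
  simp

theorem blk_det {e k : ℕ} (A : Matrix (Fin e) (Fin e) F) : (blk (k := k) A).det = A.det := by
  rw [blk, Matrix.det_reindex_self, Matrix.det_fromBlocks_zero₂₁, Matrix.det_one, mul_one]

theorem blk_pow {e k : ℕ} (A : Matrix (Fin e) (Fin e) F) (j : ℕ) :
    (blk (k := k) A) ^ j = blk (k := k) (A ^ j) := by
  have h : ∀ j : ℕ, (Matrix.fromBlocks A 0 0 (1 : Matrix (Fin k) (Fin k) F)) ^ j
      = Matrix.fromBlocks (A ^ j) 0 0 1 := by
    intro j
    induction j with
    | zero => simp [Matrix.fromBlocks_one]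
    | succ j ih => rw [pow_succ, ih, Matrix.fromBlocks_multiply]; simp [pow_succ]
  have h2 := map_pow (Matrix.reindexAlgEquiv F F (finSumFinEquiv (m := e) (n := k)))
    (Matrix.fromBlocks A 0 0 (1 : Matrix (Fin k) (Fin k) F)) j
  rw [h] at h2
  simp only [Matrix.reindexAlgEquiv_apply] at h2
  exact h2.symm

theorem blk_one {e k : ℕ} : blk (k := k) (1 : Matrix (Fin e) (Fin e) F) = 1 := by
  simp [blk, Matrix.fromBlocks_one]

/-- [D2] embedding a block without eigenvectors. -/
theorem embed_block {F : Type*} [Field F] (n e : ℕ) (hne : 1 ≤ e) (hen : e ≤ n) (hodd : Odd (n - e))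
    (r : ℕ) (hr : (r : F) ≠ 0)
    (A : Matrix (Fin e) (Fin e) F) (hA : A ^ r = 1) (hdet : A.det = 1)
    (hfix : ∀ (m : F) (v : Fin e → F), A.mulVec v = m • v → v = 0) :
    ∃ (x : Matrix.SpecialLinearGroup (Fin n) F) (l : F), l ≠ 0 ∧ x ^ r = 1 ∧
      (∀ z : F, (x : Matrix (Fin n) (Fin n) F) ≠ z • (1 : Matrix (Fin n) (Fin n) F)) ∧
      Odd (Module.finrank F (LinearMap.ker (Matrix.toLin' ((x : Matrix (Fin n) (Fin n) F) - l • (1 : Matrix (Fin n) (Fin n) F))))) ∧
      LinearMap.ker (Matrix.toLin' ((x : Matrix (Fin n) (Fin n) F) - l • (1 : Matrix (Fin n) (Fin n) F))) ⊓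
        LinearMap.range (Matrix.toLin' ((x : Matrix (Fin n) (Fin n) F) - l • (1 : Matrix (Fin n) (Fin n) F))) = ⊥ ∧
      ∀ m : F, m ≠ l →
        Module.finrank F (LinearMap.ker (Matrix.toLin' ((x : Matrix (Fin n) (Fin n) F) - m • (1 : Matrix (Fin n) (Fin n) F)))) ≠
        Module.finrank F (LinearMap.ker (Matrix.toLin' ((x : Matrix (Fin n) (Fin n) F) - l • (1 : Matrix (Fin n) (Fin n) F)))) := by
  classical
  obtain ⟨k, rfl⟩ : ∃ k, n = e + k := ⟨n - e, by omega⟩
  have hk : Odd k := by simpa using hodd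
  have hk1 : 1 ≤ k := hk.pos
  have hXdet : (blk (k := k) A).det = 1 := by rw [blk_det, hdet]
  have hlin : ∀ (m : F) (v : Fin (e + k) → F),
      Matrix.toLin' (blk (k := k) A - m • (1 : Matrix (Fin (e + k)) (Fin (e + k)) F)) v
        = blk (k := k) A *ᵥ v - m • v := by
    intro m v
    rw [Matrix.toLin'_apply, Matrix.sub_mulVec, Matrix.smul_mulVec, Matrix.one_mulVec]
  have hker1 : ∀ (m : F) (v : Fin (e + k) → F),
      v ∈ LinearMap.ker (Matrix.toLin'
        (blk (k := k) A - m • (1 : Matrix (Fin (e + k)) (Fin (e + k)) F))) →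
      ∀ i : Fin e, v (Fin.castAdd k i) = 0 := by
    intro m v hv i
    rw [LinearMap.mem_ker, hlin, sub_eq_zero] at hv
    have h1 : A *ᵥ (fun j => v (Fin.castAdd k j)) = m • (fun j => v (Fin.castAdd k j)) := by
      funext j
      rw [← blk_mulVec_l, hv]
      rfl
    exact congrFun (hfix m _ h1) i
  -- the kernel at `1`
  have hkerL : LinearMap.ker (Matrix.toLin'
      (blk (k := k) A - (1 : F) • (1 : Matrix (Fin (e + k)) (Fin (e + k)) F)))
      = LinearMap.ker (LinearMap.funLeft F F (Fin.castAdd k : Fin e → Fin (e + k))) := by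
    ext v
    constructor
    · intro hv
      rw [LinearMap.mem_ker]
      funext i
      rw [LinearMap.funLeft_apply]
      exact hker1 1 v hv i
    · intro hv
      rw [LinearMap.mem_ker] at hv
      have hv' : ∀ i : Fin e, v (Fin.castAdd k i) = 0 := by
        intro i
        have := congrFun hv i
        rwa [LinearMap.funLeft_apply] at this
      rw [LinearMap.mem_ker, hlin, one_smul]
      funext a
      refine Fin.addCases (fun i => ?_) (fun j => ?_) a
      · rw [Pi.sub_apply, blk_mulVec_l, hv' i]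
        have h0 : (fun j => v (Fin.castAdd k j)) = 0 := funext hv'
        rw [h0, Matrix.mulVec_zero]
        simp
      · rw [Pi.sub_apply, blk_mulVec_r, sub_self]
        rfl
  have hfinL : Module.finrank F (LinearMap.ker
      (LinearMap.funLeft F F (Fin.castAdd k : Fin e → Fin (e + k)))) = k := by
    have h1 := LinearMap.finrank_range_add_finrank_ker
      (LinearMap.funLeft F F (Fin.castAdd k : Fin e → Fin (e + k)))
    have hsurj : Function.Surjective
        (LinearMap.funLeft F F (Fin.castAdd k : Fin e → Fin (e + k))) := by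
      intro u
      refine ⟨Fin.append u (fun _ => 0), ?_⟩
      funext i
      rw [LinearMap.funLeft_apply, Fin.append_left]
    rw [LinearMap.range_eq_top.mpr hsurj, finrank_top, Module.finrank_fin_fun,
      Module.finrank_fin_fun] at h1
    omega
  have hfin1 : Module.finrank F (LinearMap.ker (Matrix.toLin'
      (blk (k := k) A - (1 : F) • (1 : Matrix (Fin (e + k)) (Fin (e + k)) F)))) = k := by
    rw [hkerL, hfinL]
  obtain ⟨x, hx⟩ : ∃ x : Matrix.SpecialLinearGroup (Fin (e + k)) F,
      (x : Matrix (Fin (e + k)) (Fin (e + k)) F) = blk (k := k) A := ⟨⟨blk A, hXdet⟩, rfl⟩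
  refine ⟨x, 1, one_ne_zero, ?_, ?_, ?_, ?_, ?_⟩
  · apply Matrix.SpecialLinearGroup.ext
    intro i j
    rw [Matrix.SpecialLinearGroup.coe_pow, hx, blk_pow, hA, blk_one,
      Matrix.SpecialLinearGroup.coe_one]
  · intro z hz
    rw [hx] at hz
    have hz1 : z = 1 := by
      have h := congrFun (congrFun hz (Fin.natAdd e ⟨0, hk1⟩)) (Fin.natAdd e ⟨0, hk1⟩)
      rw [blk_rr] at h
      simpa using h.symm
    have hA1 : A = 1 := by
      ext i j
      rw [← blk_ll (k := k) A i j, hz, hz1]
      simp [Matrix.one_apply]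
    have h0 := hfix 1 (Pi.single (⟨0, hne⟩ : Fin e) 1) (by rw [hA1, Matrix.one_mulVec, one_smul])
    have h1 := congrFun h0 ⟨0, hne⟩
    simp at h1
  · rw [hx, hfin1]
    exact hk
  · rw [hx, Submodule.eq_bot_iff]
    intro v hv
    obtain ⟨hv1, u, hu⟩ := Submodule.mem_inf.mp hv
    funext a
    refine Fin.addCases (fun i => ?_) (fun j => ?_) a
    · exact hker1 1 v hv1 i
    · rw [← hu, hlin, Pi.sub_apply, blk_mulVec_r, one_smul, sub_self]
      rfl
  · intro m hm
    rw [hx, hfin1]
    have hbot : LinearMap.ker (Matrix.toLin'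
        (blk (k := k) A - m • (1 : Matrix (Fin (e + k)) (Fin (e + k)) F))) = ⊥ := by
      rw [Submodule.eq_bot_iff]
      intro v hv
      have hv0 := hv
      rw [LinearMap.mem_ker, hlin, sub_eq_zero] at hv0
      funext a
      refine Fin.addCases (fun i => ?_) (fun j => ?_) a
      · exact hker1 m v hv i
      · have h1 := congrFun hv0 (Fin.natAdd e j)
        rw [blk_mulVec_r, Pi.smul_apply, smul_eq_mul] at h1
        have h2 : (1 - m) * v (Fin.natAdd e j) = 0 := by linear_combination h1
        rcases mul_eq_zero.mp h2 with h3 | h3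
        · exact absurd (sub_eq_zero.mp h3).symm hm
        · exact h3
    rw [hbot, finrank_bot]
    omega

end Cfsg.Agent.Helper19.S5968D2
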