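import Mathlib
import Cfsg.Prelude.Def_GeometricClasses
import Cfsg.Agent.Lead.S5998p8

set_option autoImplicit false
open scoped MatrixGroups

namespace Cfsg.Agent.Helper19.U3B4

variable {F : Type*} [Field F] [Fintype F] {p : ℕ} [Fact p.Prime] [CharP F p]

/-- a matrix commuting with `diag(1, ω², ω)` and with the cyclic permutation matrix is scalar -/
theorem scalar_of_comm (ω : F) (hω : ω ≠ 1) (hω3 : ω ^ 3 = 1) (Y : Matrix (Fin 3) (Fin 3) F)
    (hYA : Y * Matrix.diagonal ![1, ω ^ 2, ω] = Matrix.diagonal ![1, ω ^ 2, ω] * Y)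
    (hYC : Y * !![0, 0, 1; 1, 0, 0; 0, 1, 0] = !![0, 0, 1; 1, 0, 0; 0, 1, 0] * Y) :
    Y = Y 0 0 • (1 : Matrix (Fin 3) (Fin 3) F) := by
  have hω0 : ω ≠ 0 := by
    rintro rfl
    simp at hω3
  have h21 : ω ^ 2 - 1 ≠ 0 := by
    intro h
    apply hω
    have h2 : ω ^ 2 = 1 := sub_eq_zero.mp h
    calc ω = ω ^ 2 * ω := by rw [h2, one_mul]
      _ = ω ^ 3 := by ring
      _ = 1 := hω3
  have h11 : ω - 1 ≠ 0 := sub_ne_zero.mpr hω
  have h2ω : ω ^ 2 - ω ≠ 0 := by
    have : ω ^ 2 - ω = ω * (ω - 1) := by ring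
    rw [this]
    exact mul_ne_zero hω0 h11
  have hd : ∀ i j : Fin 3, Y i j * (![1, ω ^ 2, ω] j - ![1, ω ^ 2, ω] i) = 0 := by
    intro i j
    have e := congrFun (congrFun hYA i) j
    rw [Matrix.mul_diagonal, Matrix.diagonal_mul] at e
    linear_combination e
  have e01 : Y 0 1 = 0 := by
    have := hd 0 1
    simp only [Matrix.cons_val_zero, Matrix.cons_val_one, Matrix.cons_val_two, Matrix.tail_cons, Matrix.head_cons] at this
    rcases mul_eq_zero.mp this with h | h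
    · exact h
    · exact absurd h h21
  have e02 : Y 0 2 = 0 := by
    have := hd 0 2
    simp only [Matrix.cons_val_zero, Matrix.cons_val_one, Matrix.cons_val_two, Matrix.tail_cons, Matrix.head_cons] at this
    rcases mul_eq_zero.mp this with h | h
    · exact h
    · exact absurd h h11
  have e10 : Y 1 0 = 0 := by
    have := hd 1 0
    simp only [Matrix.cons_val_zero, Matrix.cons_val_one, Matrix.cons_val_two, Matrix.tail_cons, Matrix.head_cons] at this
    rcases mul_eq_zero.mp this with h | h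
    · exact h
    · exact absurd (by linear_combination -h : ω ^ 2 - 1 = 0) h21
  have e12 : Y 1 2 = 0 := by
    have := hd 1 2
    simp only [Matrix.cons_val_zero, Matrix.cons_val_one, Matrix.cons_val_two, Matrix.tail_cons, Matrix.head_cons] at this
    rcases mul_eq_zero.mp this with h | h
    · exact h
    · exact absurd (by linear_combination -h : ω ^ 2 - ω = 0) h2ω
  have e20 : Y 2 0 = 0 := by
    have := hd 2 0
    simp only [Matrix.cons_val_zero, Matrix.cons_val_one, Matrix.cons_val_two, Matrix.tail_cons, Matrix.head_cons] at this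
    rcases mul_eq_zero.mp this with h | h
    · exact h
    · exact absurd (by linear_combination -h : ω - 1 = 0) h11
  have e21 : Y 2 1 = 0 := by
    have := hd 2 1
    simp only [Matrix.cons_val_zero, Matrix.cons_val_one, Matrix.cons_val_two, Matrix.tail_cons, Matrix.head_cons] at this
    rcases mul_eq_zero.mp this with h | h
    · exact h
    · exact absurd h h2ω
  have c10 := congrFun (congrFun hYC 1) 0
  have c21 := congrFun (congrFun hYC 2) 1
  simp [Matrix.mul_apply, Fin.sum_univ_three] at c10 c21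
  ext i j
  fin_cases i <;> fin_cases j <;>
    simp [e01, e02, e10, e12, e20, e21, c10, c21]

theorem nz_scalar (R : Subgroup (GL (Fin 3) F)) (g : GL (Fin 3) F) (ω : F) (hω : ω ≠ 1) (hω3 : ω ^ 3 = 1) (hRd : ∀ y : GL (Fin 3) F, y ∈ R ↔ ∃ i j k : ℕ, (y : Matrix (Fin 3) (Fin 3) F) = (g : Matrix (Fin 3) (Fin 3) F) * (ω ^ i • (Matrix.diagonal ![1, ω ^ 2, ω] ^ j * !![0, 0, 1; 1, 0, 0; 0, 1, 0] ^ k)) * ((g⁻¹ : GL (Fin 3) F) : Matrix (Fin 3) (Fin 3) F)) (hR : Nat.card R = 27) (x : GL (Fin 3) F) (hx : x ∈ Cfsg.Geo.subgroupNormalizer R) (r : ℕ) (hr : r.Prime) (hr5 : 5 ≤ r) (hxr : ∃ z : F, ((x ^ r : GL (Fin 3) F) : Matrix (Fin 3) (Fin 3) F) = z • (1 : Matrix (Fin 3) (Fin 3) F)) : ∃ z : F, (x : Matrix (Fin 3) (Fin 3) F) = z • (1 : Matrix (Fin 3) (Fin 3) F) := by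
  classical
  have : Fact r.Prime := ⟨hr⟩
  have hω0 : ω ≠ 0 := by
    rintro rfl
    simp at hω3
  have hdetA : (Matrix.diagonal ![1, ω ^ 2, ω] : Matrix (Fin 3) (Fin 3) F).det ≠ 0 := by
    rw [Matrix.det_diagonal, Fin.prod_univ_three]
    simp [hω0]
  have hdetC : (!![0, 0, 1; 1, 0, 0; 0, 1, 0] : Matrix (Fin 3) (Fin 3) F).det ≠ 0 := by
    rw [Matrix.det_fin_three]
    simp
  obtain ⟨A', hA'⟩ : ∃ A' : GL (Fin 3) F,
      (A' : Matrix (Fin 3) (Fin 3) F) = Matrix.diagonal ![1, ω ^ 2, ω] :=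
    ⟨Matrix.GeneralLinearGroup.mkOfDetNeZero _ hdetA, rfl⟩
  obtain ⟨C', hC'⟩ : ∃ C' : GL (Fin 3) F,
      (C' : Matrix (Fin 3) (Fin 3) F) = !![0, 0, 1; 1, 0, 0; 0, 1, 0] :=
    ⟨Matrix.GeneralLinearGroup.mkOfDetNeZero _ hdetC, rfl⟩
  have haR : g * A' * g⁻¹ ∈ R := by
    rw [hRd]
    refine ⟨0, 1, 0, ?_⟩
    rw [Matrix.GeneralLinearGroup.coe_mul, Matrix.GeneralLinearGroup.coe_mul, hA', pow_zero,
      one_smul, pow_one, pow_zero, mul_one]
  have hbR : g * C' * g⁻¹ ∈ R := by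
    rw [hRd]
    refine ⟨0, 0, 1, ?_⟩
    rw [Matrix.GeneralLinearGroup.coe_mul, Matrix.GeneralLinearGroup.coe_mul, hC', pow_zero,
      one_smul, pow_one, pow_zero, one_mul]
  -- `A'` and `C'` do not commute
  have hAC : A' * C' ≠ C' * A' := by
    intro h
    have h1 := congrArg (fun u : GL (Fin 3) F => (u : Matrix (Fin 3) (Fin 3) F)) h
    simp only [Matrix.GeneralLinearGroup.coe_mul, hA', hC'] at h1
    have h2 := congrFun (congrFun h1 0) 2
    rw [Matrix.mul_diagonal, Matrix.diagonal_mul] at h2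
    simp at h2
    exact hω h2.symm
  have hna : ¬ ∀ a b : R, a * b = b * a := by
    intro h
    have h1 := congrArg Subtype.val (h ⟨_, haR⟩ ⟨_, hbR⟩)
    have h2 : g * A' * g⁻¹ * (g * C' * g⁻¹) = g * C' * g⁻¹ * (g * A' * g⁻¹) := h1
    apply hAC
    have h3 : A' * C' = g⁻¹ * (g * A' * g⁻¹ * (g * C' * g⁻¹)) * g := by group
    rw [h3, h2]
    group
  -- conjugation by `x` as an automorphism of `R`
  have hx0 : x ∈ Subgroup.normalizer (R : Set (GL (Fin 3) F)) := hx
  have hx' : ∀ h, h ∈ R ↔ x * h * x⁻¹ ∈ R := Subgroup.mem_normalizer_iff.mp hx0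
  have hxi : ∀ h, h ∈ R ↔ x⁻¹ * h * x ∈ R := by
    intro h
    have := Subgroup.mem_normalizer_iff.mp (inv_mem hx0) h
    simpa using this
  let φ : MulAut R :=
    { toFun := fun h => ⟨x * h * x⁻¹, (hx' h).mp h.2⟩
      invFun := fun h => ⟨x⁻¹ * h * x, (hxi h).mp h.2⟩
      left_inv := fun h => Subtype.ext (by
        show x⁻¹ * (x * (h : GL (Fin 3) F) * x⁻¹) * x = h
        group)
      right_inv := fun h => Subtype.ext (by
        show x * (x⁻¹ * (h : GL (Fin 3) F) * x) * x⁻¹ = h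
        group)
      map_mul' := fun a b => Subtype.ext (by
        show x * ((a : GL (Fin 3) F) * b) * x⁻¹ = (x * a * x⁻¹) * (x * b * x⁻¹)
        group) }
  have hφa : ∀ h : R, ((φ h : R) : GL (Fin 3) F) = x * h * x⁻¹ := fun h => rfl
  have hpow : ∀ (n : ℕ) (h : R), (((φ ^ n) h : R) : GL (Fin 3) F) = x ^ n * h * (x ^ n)⁻¹ := by
    intro n
    induction n with
    | zero => intro h; simp
    | succ n ih =>
      intro h
      rw [pow_succ', MulAut.mul_apply, hφa, ih h, pow_succ']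
      group
  obtain ⟨z, hz⟩ := hxr
  have hcomm : ∀ h : GL (Fin 3) F, x ^ r * h = h * x ^ r := by
    intro h
    apply Units.ext
    rw [Units.val_mul, Units.val_mul]
    show ((x ^ r : GL (Fin 3) F) : Matrix (Fin 3) (Fin 3) F) * (h : Matrix (Fin 3) (Fin 3) F)
      = (h : Matrix (Fin 3) (Fin 3) F) * ((x ^ r : GL (Fin 3) F) : Matrix (Fin 3) (Fin 3) F)
    rw [hz]
    simp
  have hφ : φ ^ r = 1 := by
    apply MulEquiv.ext
    intro h
    apply Subtype.ext
    rw [hpow r h, hcomm]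
    simp
  have hr2 : r ≠ 2 := by omega
  have hr3 : r ≠ 3 := by omega
  have hfix := Cfsg.Agent.Lead.S5998p8.aut_trivial hR hna φ r hr2 hr3 hφ
  have hxc : ∀ h ∈ R, x * h = h * x := by
    intro h hh
    have h1 := hfix ⟨h, hh⟩
    have h2 : x * h * x⁻¹ = h := congrArg Subtype.val h1
    calc x * h = x * h * x⁻¹ * x := by group
      _ = h * x := by rw [h2]
  -- pass to `y = g⁻¹ x g`
  have hyA : (g⁻¹ * x * g) * A' = A' * (g⁻¹ * x * g) := by
    have h1 : (g⁻¹ * x * g) * A' = g⁻¹ * (x * (g * A' * g⁻¹)) * g := by group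
    rw [h1, hxc _ haR]
    group
  have hyC : (g⁻¹ * x * g) * C' = C' * (g⁻¹ * x * g) := by
    have h1 : (g⁻¹ * x * g) * C' = g⁻¹ * (x * (g * C' * g⁻¹)) * g := by group
    rw [h1, hxc _ hbR]
    group
  have hYA := congrArg (fun u : GL (Fin 3) F => (u : Matrix (Fin 3) (Fin 3) F)) hyA
  have hYC := congrArg (fun u : GL (Fin 3) F => (u : Matrix (Fin 3) (Fin 3) F)) hyC
  simp only [Matrix.GeneralLinearGroup.coe_mul _ A', Matrix.GeneralLinearGroup.coe_mul A' _, hA'] at hYA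
  simp only [Matrix.GeneralLinearGroup.coe_mul _ C', Matrix.GeneralLinearGroup.coe_mul C' _, hC'] at hYC
  have hY := scalar_of_comm ω hω hω3 _ hYA hYC
  refine ⟨((g⁻¹ * x * g : GL (Fin 3) F) : Matrix (Fin 3) (Fin 3) F) 0 0, ?_⟩
  have hxe : x = g * (g⁻¹ * x * g) * g⁻¹ := by group
  have hgg : (g : Matrix (Fin 3) (Fin 3) F) * ((g⁻¹ : GL (Fin 3) F) : Matrix (Fin 3) (Fin 3) F) = 1 := by
    rw [← Matrix.GeneralLinearGroup.coe_mul, mul_inv_cancel]
    rfl
  have h1 := congrArg (fun u : GL (Fin 3) F => (u : Matrix (Fin 3) (Fin 3) F)) hxe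
  simp only [Matrix.GeneralLinearGroup.coe_mul g _, Matrix.GeneralLinearGroup.coe_mul _ g⁻¹] at h1
  rw [h1, hY]
  simp only [Matrix.mul_smul, Matrix.smul_mul, Matrix.mul_one, hgg]
  simp

end Cfsg.Agent.Helper19.U3B4
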